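import Mathlib
import Cfsg.Agent.GeoLib.OmegaParabolic
import Cfsg.Agent.GeoLib.Subfield
import Cfsg.Agent.SubMaxSp.Quad

/-!
A rational quadratic form and the rational root elements of a subgroup of `Ω`.
-/

set_option autoImplicit false

open QuadraticMap

namespace CfsgLib.SubMaxO

open Matrix CfsgLib.GeoOrth CfsgLib.Forms CfsgLib.GeoFull

variable {ι : Type} [Fintype ι] [DecidableEq ι] {F : Type*} [Field F] {F₀ : Subfield F}

/-- A rational vector as a vector over the large field. -/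
def cv (u : ι → F₀) : ι → F := fun k => (u k : F)

/-- All coordinates lie in the subfield. -/
def Rt (F₀ : Subfield F) (x : ι → F) : Prop := ∀ k, x k ∈ F₀

/-- The matrix carries rational vectors to rational ones. -/
def IsR (F₀ : Subfield F) (g : GL ι F) : Prop := ∀ x, Rt F₀ x → Rt F₀ ((g : Matrix ι ι F) *ᵥ x)

/-- `H` lies between the rational maps and `Ω`. -/
structure Setting (Q : QuadraticForm F (ι → F)) (Q₀ : QuadraticForm F₀ (ι → F₀)) (H : Subgroup (GL ι F)) :
    Prop where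
  nd : (polarBilin Q).Nondegenerate
  nd₀ : (polarBilin Q₀).Nondegenerate
  cast : ∀ u, Q (cv u) = (Q₀ u : F)
  big : 13 ≤ Fintype.card ι
  rat : ∀ g ∈ Cfsg.Geo.omegaGL ⇑Q, IsR F₀ g → g ∈ H
  le : H ≤ Cfsg.Geo.omegaGL ⇑Q

omit [Fintype ι] [DecidableEq ι] in
theorem rt_cv (u : ι → F₀) : Rt F₀ (cv u) := fun k => (u k).2

omit [Fintype ι] [DecidableEq ι] in
theorem exists_cv {x : ι → F} (hx : Rt F₀ x) : ∃ u : ι → F₀, cv u = x := ⟨fun k => ⟨x k, hx k⟩, rfl⟩

omit [Fintype ι] [DecidableEq ι] in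
theorem cv_add (u v : ι → F₀) : cv (u + v) = cv u + cv v := rfl

omit [Fintype ι] [DecidableEq ι] in
theorem cv_smul (c : F₀) (u : ι → F₀) : cv (c • u) = (c : F) • cv u := rfl

omit [Fintype ι] [DecidableEq ι] in
theorem cv_zero : cv (0 : ι → F₀) = 0 := rfl

omit [Fintype ι] [DecidableEq ι] in
theorem cv_neg (u : ι → F₀) : cv (-u) = -cv u := rfl

omit [Fintype ι] in
theorem cv_single (k : ι) : cv (Pi.single k (1 : F₀)) = Pi.single k 1 := funext fun o => by
  rcases eq_or_ne o k with rfl | ho <;> simp [cv, *]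

omit [Fintype ι] [DecidableEq ι] in
theorem cv_injective : Function.Injective (cv : (ι → F₀) → ι → F) := fun u v h =>
  funext fun k => Subtype.ext (congrFun h k)

omit [Fintype ι] [DecidableEq ι] in
theorem rt_add {x y : ι → F} (hx : Rt F₀ x) (hy : Rt F₀ y) : Rt F₀ (x + y) := fun k => add_mem (hx k) (hy k)

omit [Fintype ι] [DecidableEq ι] in
theorem rt_sub {x y : ι → F} (hx : Rt F₀ x) (hy : Rt F₀ y) : Rt F₀ (x - y) := fun k => sub_mem (hx k) (hy k)

omit [Fintype ι] [DecidableEq ι] in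
theorem rt_smul {c : F} (hc : c ∈ F₀) {x : ι → F} (hx : Rt F₀ x) : Rt F₀ (c • x) := fun k => mul_mem hc (hx k)

theorem isR_mul {g k : GL ι F} (hg : IsR F₀ g) (hk : IsR F₀ k) : IsR F₀ (g * k) := fun x hx => by
  rw [Units.val_mul, ← mulVec_mulVec]; exact hg _ (hk x hx)

theorem isR_mem_subfield {g : GL ι F} (hg : IsR F₀ g) : g ∈ Cfsg.Geo.subfieldSubgroup F₀ (1 : GL ι F) := by
  refine GeoSubfield.mem_subfield (one_ne_zero (α := F)) fun k j => ?_
  rw [inv_one, Units.val_one, one_mulVec, one_mulVec, one_smul]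
  refine hg _ (fun o => ?_) j
  rcases eq_or_ne o k with rfl | ho <;> simp [*, one_mem, zero_mem]

variable {Q : QuadraticForm F (ι → F)} {H : Subgroup (GL ι F)}

section Roots

theorem rootIn_smul_iff {c : F} {d a : ι → F} : RootIn Q H (c • d) a ↔ RootIn Q H d (c • a) := by
  constructor <;> intro h g hg <;> refine h g fun x => ?_ <;> rw [hg] <;>
    simp only [polar_smul_left, smul_eq_mul] <;> module

theorem rootIn_self (β : F) (d : ι → F) : RootIn Q H d (β • d) := fun g hg => by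
  rw [show g = 1 from gl_ext fun x => by
    rw [hg, Units.val_one, one_mulVec, polar_smul_left, smul_eq_mul]; module]
  exact one_mem H

theorem rootIn_neg [Finite F] (hQ : (polarBilin Q).Nondegenerate) (hn : 5 ≤ Fintype.card ι) {d a : ι → F}
    (hd : Q d = 0) (ha : Q a = 0) (hda : polar Q d a = 0) (h : RootIn Q H d a) : RootIn Q H d (-a) := by
  obtain ⟨s, -, hs⟩ := exists_isRoot hQ hn hd ha hda
  intro g hg
  rw [show g = s⁻¹ from gl_ext fun x => by
    rw [hg, root_formula_inv hd ha hda hs, polar_neg_left]; module]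
  exact inv_mem (h s hs)

end Roots

variable {Q₀ : QuadraticForm F₀ (ι → F₀)} (S : Setting Q Q₀ H)
include S

theorem polar_cv (u v : ι → F₀) : polar Q (cv u) (cv v) = ((polar Q₀ u v : F₀) : F) := by
  simp [polar, ← cv_add, S.cast]

theorem q_zero {u : ι → F₀} (h : Q₀ u = 0) : Q (cv u) = 0 := by rw [S.cast, h]; rfl

theorem p_zero {u v : ι → F₀} (h : polar Q₀ u v = 0) : polar Q (cv u) (cv v) = 0 := by
  rw [polar_cv S, h]; rfl

theorem rt_polar {x y : ι → F} (hx : Rt F₀ x) (hy : Rt F₀ y) : polar Q x y ∈ F₀ := by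
  obtain ⟨u, rfl⟩ := exists_cv hx
  obtain ⟨v, rfl⟩ := exists_cv hy
  rw [polar_cv S]; exact SetLike.coe_mem _

theorem eq_zero_of_polar {x : ι → F} (h : ∀ u : ι → F₀, polar Q x (cv u) = 0) : x = 0 := by
  refine S.nd.1 x fun y => ?_
  rw [polarBilin_apply_apply, show y = ∑ k, y k • cv (Pi.single k (1 : F₀)) from funext fun o => by
    simp [cv_single, Finset.sum_apply, Pi.single_apply]]
  rw [← polarBilin_apply_apply, map_sum]
  refine Finset.sum_eq_zero fun k _ => ?_
  rw [LinearMap.map_smul, polarBilin_apply_apply, h, smul_zero]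

/-- A vector with rational products against the rational vectors is rational. -/
theorem rt_of_polar [Finite F] {x : ι → F} (h : ∀ u : ι → F₀, polar Q (cv u) x ∈ F₀) : Rt F₀ x := by
  let φ : Module.Dual F₀ (ι → F₀) :=
    { toFun := fun u => ⟨_, h u⟩
      map_add' := fun u v => Subtype.ext (by
        show polar Q (cv (u + v)) x = _ + _
        rw [cv_add, polar_add_left])
      map_smul' := fun c u => Subtype.ext (by
        show polar Q (cv (c • u)) x = (c : F) * _
        rw [cv_smul, polar_smul_left, smul_eq_mul]) }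
  obtain ⟨x₀, hx₀⟩ := (LinearMap.BilinForm.toDual (polarBilin Q₀) S.nd₀).surjective φ
  have e : x = cv x₀ := by
    refine (sub_eq_zero.1 (eq_zero_of_polar S fun u => ?_))
    have h1 := congrArg Subtype.val (LinearMap.congr_fun hx₀ u)
    rw [LinearMap.BilinForm.toDual_def, polarBilin_apply_apply] at h1
    rw [polar_sub_left, polar_cv S, h1]
    show polar Q x (cv u) - polar Q (cv u) x = 0
    rw [polar_comm, sub_self]
  rw [e]; exact rt_cv x₀

theorem five_le : 5 ≤ Fintype.card ι := le_trans (by norm_num) S.big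

theorem isR_root {d a : ι → F} (hd : Rt F₀ d) (ha : Rt F₀ a) {g : GL ι F} (hg : IsRoot Q d a g) : IsR F₀ g :=
  fun x hx => by
    rw [hg]
    exact rt_sub (rt_add hx (rt_smul (rt_polar S ha hx) hd)) (rt_smul (rt_polar S hd hx) ha)

theorem root_rat [Finite F] {u v : ι → F₀} (hu : Q₀ u = 0) (hv : Q₀ v = 0) (huv : polar Q₀ u v = 0) :
    RootIn Q H (cv u) (cv v) := by
  obtain ⟨g, hg, eg⟩ := exists_isRoot S.nd (five_le S) (q_zero S hu) (q_zero S hv) (p_zero S huv)
  exact rootIn_of eg (S.rat g hg (isR_root S (rt_cv u) (rt_cv v) eg))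

theorem siegel_rat [Finite F] {u v : ι → F₀} (hu : Q₀ u = 0) (huv : polar Q₀ u v = 0) :
    SiegelIn Q H (cv u) (cv v) := by
  obtain ⟨g, hg, eg⟩ := exists_isSiegel S.nd (five_le S) (q_zero S hu) (p_zero S huv)
  have hR : IsR F₀ g := fun x hx => by
    rw [eg]
    refine rt_sub (rt_add hx (rt_smul ?_ (rt_cv u))) (rt_smul (rt_polar S (rt_cv u) hx) (rt_cv v))
    exact sub_mem (rt_polar S (rt_cv v) hx) (mul_mem (by rw [S.cast]; exact SetLike.coe_mem _)
      (rt_polar S (rt_cv u) hx))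
  intro g' hg'
  rw [show g' = g from gl_ext fun x => by rw [hg', eg]]
  exact S.rat g hg hR

omit S in
theorem finrank_range4 (a b c d : ι → F₀) :
    Module.finrank F₀ (Submodule.span F₀ (Set.range ![a, b, c, d])) ≤ 4 :=
  (finrank_range_le_card _).trans (by simp)

/-- A rational singular vector orthogonal to four given ones and outside their span. -/
theorem exists_out [Finite F] (a b c d : ι → F₀) : ∃ z : ι → F₀, Q₀ z = 0 ∧ polar Q₀ z a = 0 ∧ polar Q₀ z b = 0 ∧
    polar Q₀ z c = 0 ∧ polar Q₀ z d = 0 ∧ z ∉ Submodule.span F₀ (Set.range ![a, b, c, d]) := by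
  obtain ⟨z, hz, hz0, hzU⟩ := exists_singular_out S.nd₀ (Submodule.span F₀ (Set.range ![a, b, c, d]))
    (by have := finrank_range4 (F₀ := F₀) a b c d; have := S.big; omega)
  rw [mem_perp_span] at hz
  exact ⟨z, hz0, hz _ ⟨0, rfl⟩, hz _ ⟨1, rfl⟩, hz _ ⟨2, rfl⟩, hz _ ⟨3, rfl⟩, hzU⟩

/-- A singular partner. -/
theorem exists_dual [Finite F] {y x z : ι → F₀} (hy : y ∉ Submodule.span F₀ {x, z}) :
    ∃ w : ι → F₀, Q₀ w = 0 ∧ polar Q₀ w x = 0 ∧ polar Q₀ w z = 0 ∧ polar Q₀ y w = 1 := by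
  obtain ⟨e, he, he0, hne⟩ := GeoOrth.exists_singular_ne S.nd₀ (U := Submodule.span F₀ {x, z})
    (by have := GeoOrth.finrank_pair_le (F := F₀) x z; have := S.big; omega) hy
  obtain ⟨e1, e2⟩ := mem_perp_pair.1 he
  refine ⟨(polar Q₀ y e)⁻¹ • e, ?_, ?_, ?_, ?_⟩
  · rw [QuadraticMap.map_smul, he0, smul_zero]
  · rw [polar_smul_left, e1, smul_zero]
  · rw [polar_smul_left, e2, smul_zero]
  · rw [polar_smul_right, smul_eq_mul, inv_mul_cancel₀ hne]

/-- Rational singular vectors span the perpendicular of a small space. -/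
theorem span_perp [Finite F] {x z : ι → F₀} (Z : Submodule F₀ (ι → F₀))
    (hZ : ∀ e, Q₀ e = 0 → polar Q₀ e x = 0 → polar Q₀ e z = 0 → e ∉ Submodule.span F₀ {x, z} → e ∈ Z)
    {u : ι → F₀} (h1 : polar Q₀ u x = 0) (h2 : polar Q₀ u z = 0) : u ∈ Z :=
  perp_le_of_singular S.nd₀ (U := Submodule.span F₀ {x, z})
    (by have := GeoOrth.finrank_pair_le (F := F₀) x z; have := S.big; omega)
    (fun e he he0 heU => hZ e he0 (mem_perp_pair.1 he).1 (mem_perp_pair.1 he).2 heU)
    (mem_perp_pair.2 ⟨h1, h2⟩)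

end CfsgLib.SubMaxO
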