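import Mathlib
import Cfsg.Agent.SubMaxO.Basic

/-!
The coefficients of the root groups of a subgroup of `Ω` containing the rational maps.
-/

set_option autoImplicit false

open QuadraticMap

namespace CfsgLib.SubMaxO

open Matrix CfsgLib.GeoOrth CfsgLib.Forms CfsgLib.GeoFull

variable {ι : Type} [Fintype ι] [DecidableEq ι] {F : Type*} [Field F] {F₀ : Subfield F}

/-- The coefficient occurs in every rational root group of `H`. -/
def MemA (Q : QuadraticForm F (ι → F)) (Q₀ : QuadraticForm F₀ (ι → F₀)) (H : Subgroup (GL ι F)) (a : F) : Prop :=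
  ∀ u v : ι → F₀, Q₀ u = 0 → Q₀ v = 0 → polar Q₀ u v = 0 → RootIn Q H (cv u) (a • cv v)

variable {Q : QuadraticForm F (ι → F)} {Q₀ : QuadraticForm F₀ (ι → F₀)} {H : Subgroup (GL ι F)}

theorem mem4 {a b c d : ι → F₀} :
    a ∈ Submodule.span F₀ (Set.range ![a, b, c, d]) ∧ b ∈ Submodule.span F₀ (Set.range ![a, b, c, d]) ∧
      c ∈ Submodule.span F₀ (Set.range ![a, b, c, d]) ∧ d ∈ Submodule.span F₀ (Set.range ![a, b, c, d]) :=
  ⟨Submodule.subset_span ⟨0, rfl⟩, Submodule.subset_span ⟨1, rfl⟩, Submodule.subset_span ⟨2, rfl⟩,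
    Submodule.subset_span ⟨3, rfl⟩⟩

theorem pair_le {x z : ι → F₀} {U : Submodule F₀ (ι → F₀)} (hx : x ∈ U) (hz : z ∈ U) :
    Submodule.span F₀ {x, z} ≤ U := Submodule.span_le.2 (by
  rintro w (rfl | rfl) <;> assumption)

/-- If `z` is outside a space holding `x` and `y`, and `y` is not a multiple of `x`, then `y ∉ ⟨x, z⟩`. -/
theorem not_mem_pair {x y z : ι → F₀} {U : Submodule F₀ (ι → F₀)} (hx : x ∈ U) (hy : y ∈ U) (hz : z ∉ U)
    (hyx : y ∉ Submodule.span F₀ {x}) : y ∉ Submodule.span F₀ {x, z} :=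
  GeoOrth.not_mem_span_pair hyx fun h => hz (pair_le hx hy h)

theorem not_mem_single {x z : ι → F₀} {U : Submodule F₀ (ι → F₀)} (hx : x ∈ U) (hz : z ∉ U) :
    z ∉ Submodule.span F₀ {x} := fun h => hz ((Submodule.span_singleton_le_iff_mem _ _).2 hx h)

theorem swap_not_mem {x z : ι → F₀} (hx0 : x ≠ 0) (hz : z ∉ Submodule.span F₀ {x}) :
    x ∉ Submodule.span F₀ {z} := fun h => by
  obtain ⟨c, e⟩ := Submodule.mem_span_singleton.1 h
  have hc : c ≠ 0 := fun h0 => hx0 (by rw [← e, h0, zero_smul])
  exact hz (Submodule.mem_span_singleton.2 ⟨c⁻¹, by rw [← e, inv_smul_smul₀ hc]⟩)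

variable [Finite F] (S : Setting Q Q₀ H)
include S

theorem step {x y y'' : ι → F₀} {a : F} (hx : Q₀ x = 0) (hy : Q₀ y = 0) (hy'' : Q₀ y'' = 0)
    (hxy : polar Q₀ x y = 0) (hxy'' : polar Q₀ x y'' = 0) (hyy'' : polar Q₀ y y'' = 0)
    (hind : y ∉ Submodule.span F₀ {x, y''}) (h : RootIn Q H (cv x) (a • cv y)) :
    RootIn Q H (cv x) (a • cv y'') := by
  obtain ⟨w, hw, hwx, hwy, hyw⟩ := exists_dual S hind
  have hy''w : polar Q₀ y'' w = 0 := by rw [polar_comm, hwy]
  obtain ⟨t, ht, et⟩ := exists_isRoot S.nd (five_le S) (q_zero S hy'') (q_zero S hw) (p_zero S hy''w)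
  have htH : t ∈ H := root_rat S hy'' hw hy''w t et
  have etx : (t : Matrix ι ι F) *ᵥ cv x = cv x := by
    rw [et, p_zero S hwx, p_zero S (by rw [polar_comm, hxy''] : polar Q₀ y'' x = 0)]; simp
  have ety : (t : Matrix ι ι F) *ᵥ cv y = cv y + cv y'' := by
    rw [et, polar_cv S w y, polar_comm (⇑Q₀) w y, hyw, p_zero S (by rw [polar_comm, hyy''] : polar Q₀ y'' y = 0)]
    simp
  have h1 := rootIn_map htH ht h
  rw [etx, mulVec_smul, ety] at h1
  have q1 : Q (a • cv y) = 0 := by rw [QuadraticMap.map_smul, q_zero S hy, smul_zero]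
  have p1 : polar Q (cv x) (a • cv y) = 0 := by rw [polar_smul_right, p_zero S hxy, smul_zero]
  have h2 := rootIn_neg S.nd (five_le S) (q_zero S hx) q1 p1 h
  have qn : Q (-(a • cv y)) = 0 := by rw [QuadraticMap.map_neg, q1]
  have qs : Q (a • (cv y + cv y'')) = 0 := by
    rw [QuadraticMap.map_smul, QuadraticMap.map_add (⇑Q), q_zero S hy, q_zero S hy'', p_zero S hyy'']
    simp
  have h3 := rootIn_add S.nd (five_le S) (q_zero S hx) qs qn
    (by rw [polar_smul_right, polar_add_right, p_zero S hxy, p_zero S hxy'', add_zero, smul_zero])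
    (by rw [polar_neg_right, p1, neg_zero])
    (by
      rw [polar_neg_right, polar_smul_left, polar_smul_right, polar_add_left, p_zero S (u := y'') (v := y) (by rw [polar_comm, hyy'']), polar_self, q_zero S hy]
      simp) h1 h2
  rwa [show a • (cv y + cv y'') + -(a • cv y) = a • cv y'' by module] at h3

/-- One instance gives membership. -/
theorem memA_of {x y : ι → F₀} {a : F} (hx : Q₀ x = 0) (hy : Q₀ y = 0) (hxy : polar Q₀ x y = 0) (hx0 : x ≠ 0)
    (hyx : y ∉ Submodule.span F₀ {x}) (h : RootIn Q H (cv x) (a • cv y)) : MemA Q Q₀ H a := by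
  intro u v hu hv huv
  by_cases hvu : v ∈ Submodule.span F₀ {u}
  · obtain ⟨β, rfl⟩ := Submodule.mem_span_singleton.1 hvu
    rw [cv_smul, smul_smul]
    exact rootIn_self _ _
  by_cases hu0 : u = 0
  · subst hu0
    intro g hg
    rw [show g = 1 from gl_ext fun z => by
      rw [hg, Units.val_one, one_mulVec, cv_zero, polar_zero_left]; simp]
    exact one_mem H
  obtain ⟨z, hz, zx, zy, zu, zv, hzU⟩ := exists_out S x y u v
  obtain ⟨mx, my, mu, mv⟩ := mem4 (a := x) (b := y) (c := u) (d := v)
  have a1 := step S hx hy hz hxy (by rw [polar_comm, zx]) (by rw [polar_comm, zy]) (not_mem_pair mx my hzU hyx) h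
  obtain ⟨z', hz', z'x, z'z, z'u, z'v, hz'U⟩ := exists_out S x z u v
  obtain ⟨nx, nz, nu, nv⟩ := mem4 (a := x) (b := z) (c := u) (d := v)
  have hzx := not_mem_single mx hzU
  have hzu := not_mem_single mu hzU
  have a2 := step S hx hz hz' (by rw [polar_comm, zx]) (by rw [polar_comm, z'x]) (by rw [polar_comm, z'z])
    (not_mem_pair nx nz hz'U hzx) a1
  have a3 : RootIn Q H (cv z') ((-a) • cv x) := by
    have := rootIn_smul_iff.1 (rootIn_swap a2)
    rwa [show a • -cv x = (-a) • cv x by module] at this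
  -- replace `x` by `z`, then by `u`
  have a4 := step S hz' hx hz z'x (by rw [z'z]) (by rw [polar_comm, zx]) (by
    rw [show ({z', z} : Set (ι → F₀)) = {z, z'} from Set.pair_comm _ _]
    exact not_mem_pair nz nx hz'U (swap_not_mem hx0 hzx)) a3
  have a5 := step S hz' hz hu (by rw [z'z]) (by rw [z'u]) (by rw [zu]) (by
    rw [show ({z', u} : Set (ι → F₀)) = {u, z'} from Set.pair_comm _ _]
    exact not_mem_pair nu nz hz'U hzu) a4
  have a6 : RootIn Q H (cv u) (a • cv z') := by
    have := rootIn_smul_iff.1 (rootIn_swap a5)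
    rwa [show (-a) • -cv z' = a • cv z' by module] at this
  exact step S hu hz' hv (by rw [polar_comm, z'u]) huv z'v (fun hh => hz'U (pair_le nu nv hh)) a6

theorem root_scalar {u v : ι → F₀} (hu : Q₀ u = 0) (hv : Q₀ v = 0) (huv : polar Q₀ u v = 0) {a : F} (ha : a ∈ F₀) :
    RootIn Q H (cv u) (a • cv v) := by
  have := root_rat S hu (v := (⟨a, ha⟩ : F₀) • v) (by rw [QuadraticMap.map_smul, hv, smul_zero])
    (by rw [polar_smul_right, huv, smul_zero])
  rwa [cv_smul] at this

theorem exists_singular_ne_zero : ∃ x : ι → F₀, Q₀ x = 0 ∧ x ≠ 0 := by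
  obtain ⟨z, hz, -, -, -, -, hzU⟩ := exists_out S 0 0 0 0
  exact ⟨z, hz, fun e => hzU (by rw [e]; exact Submodule.zero_mem _)⟩

/-- The coefficients form a ring containing the subfield. -/
theorem exists_ring : ∃ A : Subring F, (∀ a, a ∈ A ↔ MemA Q Q₀ H a) ∧ ∀ a ∈ F₀, a ∈ A := by
  have h0 : ∀ a ∈ F₀, MemA Q Q₀ H a := fun a ha u v hu hv huv => root_scalar S hu hv huv ha
  refine ⟨{ carrier := {a | MemA Q Q₀ H a}
            one_mem' := h0 1 (one_mem _)
            zero_mem' := h0 0 (zero_mem _)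
            add_mem' := fun {a b} ha hb u v hu hv huv => by
              rw [add_smul]
              exact rootIn_add S.nd (five_le S) (q_zero S hu)
                (by rw [QuadraticMap.map_smul, q_zero S hv, smul_zero])
                (by rw [QuadraticMap.map_smul, q_zero S hv, smul_zero])
                (by rw [polar_smul_right, p_zero S huv, smul_zero])
                (by rw [polar_smul_right, p_zero S huv, smul_zero])
                (by rw [polar_smul_left, polar_smul_right, polar_self, q_zero S hv]; simp)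
                (ha u v hu hv huv) (hb u v hu hv huv)
            neg_mem' := fun {a} ha u v hu hv huv => by
              rw [neg_smul]
              exact rootIn_neg S.nd (five_le S) (q_zero S hu)
                (by rw [QuadraticMap.map_smul, q_zero S hv, smul_zero])
                (by rw [polar_smul_right, p_zero S huv, smul_zero]) (ha u v hu hv huv)
            mul_mem' := ?_ }, fun a => Iff.rfl, h0⟩
  intro a b ha hb
  obtain ⟨x, hx, hx0⟩ := exists_singular_ne_zero S
  obtain ⟨y, hy, yx, -, -, -, hyU⟩ := exists_out S x 0 0 0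
  obtain ⟨z, hz, zx, zy, -, -, hzU⟩ := exists_out S x y 0 0
  have hyx := not_mem_single (mem4 (a := x) (b := 0) (c := 0) (d := 0)).1 hyU
  have hzx := not_mem_single (mem4 (a := x) (b := y) (c := 0) (d := 0)).1 hzU
  have hyxz := not_mem_pair (mem4 (a := x) (b := y) (c := 0) (d := 0)).1
    (mem4 (a := x) (b := y) (c := 0) (d := 0)).2.1 hzU hyx
  obtain ⟨w, hw, hwx, hwz, hyw⟩ := exists_dual S hyxz
  have hzw : polar Q₀ z w = 0 := by rw [polar_comm, hwz]
  have qb : Q (b • cv w) = 0 := by rw [QuadraticMap.map_smul, q_zero S hw, smul_zero]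
  obtain ⟨t, ht, et⟩ := exists_isRoot S.nd (five_le S) (q_zero S hz) qb
    (by rw [polar_smul_right, p_zero S hzw, smul_zero])
  have htH : t ∈ H := hb z w hz hw hzw t et
  have etx : (t : Matrix ι ι F) *ᵥ cv x = cv x := by
    rw [et, polar_smul_left, p_zero S hwx, p_zero S zx]; simp
  have ety : (t : Matrix ι ι F) *ᵥ cv y = cv y + b • cv z := by
    rw [et, polar_smul_left, polar_cv S w y, polar_comm (⇑Q₀) w y, hyw, p_zero S zy]; simp
  have hxy : polar Q₀ x y = 0 := by rw [polar_comm, yx]
  have h1 := rootIn_map htH ht (ha x y hx hy hxy)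
  rw [etx, mulVec_smul, ety] at h1
  have pxy : polar Q (cv x) (cv y) = 0 := p_zero S hxy
  have pxz : polar Q (cv x) (cv z) = 0 := by rw [polar_comm]; exact p_zero S zx
  have pzy : polar Q (cv z) (cv y) = 0 := p_zero S zy
  have h2 := rootIn_neg S.nd (five_le S) (q_zero S hx) (by rw [QuadraticMap.map_smul, q_zero S hy, smul_zero])
    (by rw [polar_smul_right, pxy, smul_zero]) (ha x y hx hy hxy)
  have h3 := rootIn_add S.nd (five_le S) (q_zero S hx)
    (show Q (a • (cv y + b • cv z)) = 0 by
      rw [QuadraticMap.map_smul, QuadraticMap.map_add (⇑Q), q_zero S hy, QuadraticMap.map_smul, q_zero S hz,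
        polar_smul_right, polar_comm Q (cv y), pzy]
      simp)
    (show Q (-(a • cv y)) = 0 by rw [QuadraticMap.map_neg, QuadraticMap.map_smul, q_zero S hy, smul_zero])
    (by rw [polar_smul_right, polar_add_right, polar_smul_right, pxy, pxz]; simp)
    (by rw [polar_neg_right, polar_smul_right, pxy, smul_zero, neg_zero])
    (by
      rw [polar_neg_right, polar_smul_left, polar_smul_right, polar_add_left, polar_smul_left, pzy, polar_self,
        q_zero S hy]
      simp) h1 h2
  rw [show a • (cv y + b • cv z) + -(a • cv y) = (a * b) • cv z by module] at h3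
  exact memA_of S hx hz (by rw [polar_comm, zx]) hx0 hzx h3

/-- All coefficients: everything. -/
theorem eq_top_case (hA : ∀ a, MemA Q Q₀ H a) : H = Cfsg.Geo.omegaGL ⇑Q := by
  refine le_antisymm S.le ?_
  have hfull : ∀ x : ι → F₀, Q₀ x = 0 → x ≠ 0 → FullCen Q H (cv x) := by
    intro x hx hx0 a ha
    obtain ⟨f, hf, -, -, hxf⟩ := exists_dual S (y := x) (x := 0) (z := 0) (by
      rw [Set.pair_eq_singleton, Submodule.mem_span_singleton]
      rintro ⟨c, e⟩; exact hx0 (by rw [← e, smul_zero]))
    let Z : Submodule F₀ (ι → F₀) :=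
      { carrier := {u | polar Q₀ x u = 0 ∧ ∀ c : F, SiegelIn Q H (cv x) (c • cv u)}
        add_mem' := fun {u v} hu hv => ⟨by rw [polar_add_right, hu.1, hv.1, add_zero], fun c => by
          rw [cv_add, smul_add]
          exact siegelIn_add S.nd (five_le S) (q_zero S hx) (by rw [polar_smul_right, p_zero S hu.1, smul_zero])
            (by rw [polar_smul_right, p_zero S hv.1, smul_zero]) (hu.2 c) (hv.2 c)⟩
        zero_mem' := ⟨polar_zero_right _ _, fun c => by rw [cv_zero, smul_zero]; exact siegelIn_zero_right _⟩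
        smul_mem' := fun κ u hu => ⟨by rw [polar_smul_right, hu.1, smul_zero], fun c => by
          rw [cv_smul, smul_smul]; exact hu.2 _⟩ }
    have hZ : ∀ u, polar Q₀ x u = 0 → u ∈ Z := fun u hu => span_perp S (x := x) (z := x) Z
      (fun e he h1 _ _ => ⟨by rw [polar_comm, h1], fun c =>
        siegelIn_of_rootIn (by rw [QuadraticMap.map_smul, q_zero S he, smul_zero])
          (hA c x e hx he (by rw [polar_comm, h1]))⟩)
      (by rw [polar_comm, hu]) (by rw [polar_comm, hu])
    have hdec : a = ∑ k, a k • cv (Pi.single k 1 - polar Q₀ x (Pi.single k 1) • f) := by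
      have e : a = ∑ k, a k • cv (Pi.single k (1 : F₀)) := funext fun o => by
        simp [cv_single, Finset.sum_apply, Pi.single_apply]
      have e0 : ∑ k, a k * polar Q (cv x) (cv (Pi.single k (1 : F₀))) = 0 := by
        conv_rhs => rw [← ha, e, ← polarBilin_apply_apply, map_sum]
        exact Finset.sum_congr rfl fun k _ => by rw [LinearMap.map_smul, polarBilin_apply_apply, smul_eq_mul]
      conv_lhs => rw [e]
      simp only [sub_eq_add_neg, cv_add, cv_neg, cv_smul, smul_add, smul_neg, smul_smul, Finset.sum_add_distrib,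
        Finset.sum_neg_distrib, ← Finset.sum_smul]
      rw [show ∑ k, a k * ((polar Q₀ x (Pi.single k 1) : F₀) : F) = 0 by
        simpa only [polar_cv S] using e0, zero_smul, neg_zero, add_zero]
    rw [hdec]
    refine (Finset.sum_induction _ (fun b => polar Q (cv x) b = 0 ∧ SiegelIn Q H (cv x) b)
      (fun b b' hb hb' => ⟨by rw [polar_add_right, hb.1, hb'.1, add_zero],
        siegelIn_add S.nd (five_le S) (q_zero S hx) hb.1 hb'.1 hb.2 hb'.2⟩)
      ⟨polar_zero_right _ _, siegelIn_zero_right _⟩ fun k _ => ?_).2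
    have hu := hZ (Pi.single k 1 - polar Q₀ x (Pi.single k 1) • f) (by
      rw [polar_sub_right, polar_smul_right, hxf, smul_eq_mul, mul_one, sub_self])
    exact ⟨by rw [polar_smul_right, p_zero S hu.1, smul_zero], hu.2 _⟩
  obtain ⟨x, hx, hx0⟩ := exists_singular_ne_zero S
  obtain ⟨f, hf, -, -, hxf⟩ := exists_dual S (y := x) (x := 0) (z := 0) (by
    rw [Set.pair_eq_singleton, Submodule.mem_span_singleton]
    rintro ⟨c, e⟩; exact hx0 (by rw [← e, smul_zero]))
  have hf0 : f ≠ 0 := fun e => by simp [e] at hxf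
  exact omega_le_of_fullCen S.nd (five_le S) (q_zero S hx) (hfull x hx hx0) (q_zero S hf) (hfull f hf hf0)
    (by rw [polar_cv S, hxf]; exact one_ne_zero)

end CfsgLib.SubMaxO
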