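import Mathlib
import Cfsg.Agent.SubMaxO.Alg

/-!
Elements of `H` fixing a singular rational vector are rational.
-/

set_option autoImplicit false

open QuadraticMap

namespace CfsgLib.SubMaxO

open Matrix CfsgLib.GeoOrth CfsgLib.Forms CfsgLib.GeoFull

variable {ι : Type} [Fintype ι] [DecidableEq ι] {F : Type*} [Field F] {F₀ : Subfield F}

/-- The case in which all coefficients are rational. -/
structure Tight (Q : QuadraticForm F (ι → F)) (Q₀ : QuadraticForm F₀ (ι → F₀)) (H : Subgroup (GL ι F)) : Prop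
    extends Setting Q Q₀ H where
  small : ∀ a, MemA Q Q₀ H a → a ∈ F₀

variable {Q : QuadraticForm F (ι → F)} {Q₀ : QuadraticForm F₀ (ι → F₀)} {H : Subgroup (GL ι F)}
variable [Finite F] (T : Tight Q Q₀ H)
include T

/-- The coefficient of a root of centre `e` along a pair is rational. -/
theorem isolate {e z₁ z₂ : ι → F₀} (he : Q₀ e = 0) (he0 : e ≠ 0) (h1 : Q₀ z₁ = 0) (h2 : Q₀ z₂ = 0)
    (he1 : polar Q₀ e z₁ = 0) (he2 : polar Q₀ e z₂ = 0) (h12 : polar Q₀ z₁ z₂ = 0)
    (hind : z₁ ∉ Submodule.span F₀ {e, z₂}) {β γ : F} (h : RootIn Q H (cv e) (β • cv z₁ + γ • cv z₂)) :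
    β ∈ F₀ := by
  have S := T.toSetting
  obtain ⟨w, hw, hwe, hw2, h1w⟩ := exists_dual S hind
  obtain ⟨z₃, h3, h3e, h31, h32, h3w, h3U⟩ := exists_out S e z₁ z₂ w
  obtain ⟨k, hk, ek⟩ := exists_isRoot S.nd (five_le S) (q_zero S h3) (q_zero S hw) (p_zero S h3w)
  have hkH : k ∈ H := root_rat S h3 hw h3w k ek
  have k1 : (k : Matrix ι ι F) *ᵥ cv z₁ = cv z₁ + cv z₃ := by
    rw [ek, polar_cv S w z₁, polar_comm (⇑Q₀) w z₁, h1w, p_zero S h31]; simp
  have k2 : (k : Matrix ι ι F) *ᵥ cv z₂ = cv z₂ := by rw [ek, p_zero S hw2, p_zero S h32]; simp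
  have ke : (k : Matrix ι ι F) *ᵥ cv e = cv e := by rw [ek, p_zero S hwe, p_zero S h3e]; simp
  have h' := rootIn_map hkH hk h
  rw [mulVec_add, mulVec_smul, mulVec_smul, k1, k2, ke] at h'
  set d := β • cv z₁ + γ • cv z₂ with hd
  have qd : Q d = 0 := by
    rw [hd, QuadraticMap.map_add (⇑Q), QuadraticMap.map_smul, QuadraticMap.map_smul, q_zero S h1, q_zero S h2,
      polar_smul_left, polar_smul_right, p_zero S h12]
    simp
  have pd : polar Q (cv e) d = 0 := by
    rw [hd, polar_add_right, polar_smul_right, polar_smul_right, p_zero S he1, p_zero S he2]; simp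
  have q3 : Q (β • cv z₃) = 0 := by rw [QuadraticMap.map_smul, q_zero S h3, smul_zero]
  have pd3 : polar Q d (β • cv z₃) = 0 := by
    rw [hd, polar_add_left, polar_smul_left, polar_smul_left, polar_smul_right, polar_smul_right,
      p_zero S (by rw [polar_comm, h31] : polar Q₀ z₁ z₃ = 0), p_zero S (by rw [polar_comm, h32] : polar Q₀ z₂ z₃ = 0)]
    simp
  rw [show β • (cv z₁ + cv z₃) + γ • cv z₂ = d + β • cv z₃ by rw [hd]; module] at h'
  have hn := rootIn_neg S.nd (five_le S) (q_zero S he) qd pd h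
  have h'' := rootIn_add S.nd (five_le S) (q_zero S he)
    (show Q (d + β • cv z₃) = 0 by rw [QuadraticMap.map_add (⇑Q), qd, q3, pd3]; simp)
    (show Q (-d) = 0 by rw [QuadraticMap.map_neg, qd])
    (by rw [polar_add_right, pd, polar_smul_right, p_zero S (by rw [polar_comm, h3e] : polar Q₀ e z₃ = 0)]; simp)
    (by rw [polar_neg_right, pd, neg_zero])
    (by rw [polar_neg_right, polar_add_left, polar_self, qd, polar_comm Q (β • cv z₃), pd3]; simp)
    h' hn
  rw [show d + β • cv z₃ + -d = β • cv z₃ by abel] at h''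
  exact T.small _ (memA_of S he h3 (by rw [polar_comm, h3e]) he0
    (not_mem_single (mem4 (a := e) (b := z₁) (c := z₂) (d := w)).1 h3U) h'')

variable {e f : ι → F₀}

/-- Off the fixed line the images are rational. -/
theorem proj_rat (he : Q₀ e = 0) (he0 : e ≠ 0) (hf : Q₀ f = 0) (hef : polar Q₀ e f = 1) {g : GL ι F} (hg : g ∈ H)
    (hge : (g : Matrix ι ι F) *ᵥ cv e = cv e) {y : ι → F₀} (hye : polar Q₀ e y = 0) :
    Rt F₀ ((g : Matrix ι ι F) *ᵥ cv y - polar Q ((g : Matrix ι ι F) *ᵥ cv y) (cv f) • cv e) := by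
  have S := T.toSetting
  set x := (g : Matrix ι ι F) *ᵥ cv y with hx
  have hgO := S.le hg
  have hex : polar Q (cv e) x = 0 := by rw [hx, ← hge, (polar_omega hgO).2, p_zero S hye]
  have s1 : SiegelIn Q H (cv e) x := by
    have := siegelIn_map hg hgO (siegel_rat S he hye)
    rwa [hge] at this
  have s2 : SiegelIn Q H (cv e) (-x) := by
    have := siegelIn_map hg hgO (siegel_rat S he (v := -y) (by rw [polar_neg_right, hye, neg_zero]))
    rwa [hge, cv_neg, mulVec_neg] at this
  have hdet : ∀ z : ι → F₀, Q₀ z = 0 → polar Q₀ e z = 0 → z ∉ Submodule.span F₀ {e} →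
      polar Q (cv z) x ∈ F₀ := by
    intro z hz hez hze
    obtain ⟨z₁, h1, h1e, h1z, -, -, h1U⟩ := exists_out S e z 0 0
    obtain ⟨k, hk, ek⟩ := exists_isRoot S.nd (five_le S) (q_zero S h1) (q_zero S hz) (p_zero S h1z)
    have hkH : k ∈ H := root_rat S h1 hz h1z k ek
    have ke : (k : Matrix ι ι F) *ᵥ cv e = cv e := by
      rw [ek, p_zero S (by rw [polar_comm, hez] : polar Q₀ z e = 0), p_zero S h1e]; simp
    have h := siegelIn_map hkH hk s1
    rw [ke, ek] at h
    set d := polar Q (cv z) x • cv z₁ + (-polar Q (cv z₁) x) • cv z with hd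
    rw [show x + polar Q (cv z) x • cv z₁ - polar Q (cv z₁) x • cv z = x + d by rw [hd]; module] at h
    have pd : polar Q (cv e) d = 0 := by
      rw [hd, polar_add_right, polar_smul_right, polar_smul_right, p_zero S hez,
        p_zero S (by rw [polar_comm, h1e] : polar Q₀ e z₁ = 0)]
      simp
    have qd : Q d = 0 := by
      rw [hd, QuadraticMap.map_add (⇑Q), QuadraticMap.map_smul, QuadraticMap.map_smul, q_zero S h1, q_zero S hz,
        polar_smul_left, polar_smul_right, p_zero S h1z]
      simp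
    have h' := siegelIn_add S.nd (five_le S) (q_zero S he) (by rw [polar_add_right, hex, pd, add_zero])
      (by rw [polar_neg_right, hex, neg_zero]) h s2
    rw [show x + d + -x = d by abel] at h'
    obtain ⟨m1, m2, -, -⟩ := mem4 (a := e) (b := z) (c := (0 : ι → F₀)) (d := 0)
    exact isolate T he he0 h1 hz (by rw [polar_comm, h1e]) hez h1z (fun h => h1U (pair_le m1 m2 h))
      (rootIn_of_siegelIn qd h')
  let Z : Submodule F₀ (ι → F₀) :=
    { carrier := {u | polar Q (cv u) x ∈ F₀}
      add_mem' := fun {u v} hu hv => by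
        show polar Q (cv (u + v)) x ∈ F₀
        rw [cv_add, polar_add_left]; exact add_mem hu hv
      zero_mem' := by
        show polar Q (cv (0 : ι → F₀)) x ∈ F₀
        rw [cv_zero, polar_zero_left]; exact zero_mem _
      smul_mem' := fun κ u hu => by
        show polar Q (cv (κ • u)) x ∈ F₀
        rw [cv_smul, polar_smul_left]; exact mul_mem (SetLike.coe_mem κ) hu }
  have hZ : ∀ u, polar Q₀ e u = 0 → u ∈ Z := fun u hu => span_perp S (x := e) (z := e) Z
    (fun z hz h1 _ h => hdet z hz (by rw [polar_comm, h1])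
      (by rwa [Set.pair_eq_singleton] at h)) (by rw [polar_comm, hu]) (by rw [polar_comm, hu])
  refine rt_of_polar S fun u => ?_
  set u' := u - polar Q₀ e u • f with hu'
  have h1 : polar Q (cv u') x ∈ F₀ := hZ u' (by rw [hu', polar_sub_right, polar_smul_right, hef, smul_eq_mul,
    mul_one, sub_self])
  have e1 : polar Q (cv u) (x - polar Q x (cv f) • cv e) = polar Q (cv u') x := by
    have e2 : cv u' = cv u - ((polar Q₀ e u : F₀) : F) • cv f := by rw [hu']; rfl
    rw [e2, polar_sub_right, polar_smul_right, polar_sub_left, polar_smul_left, smul_eq_mul, smul_eq_mul,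
      polar_cv S u e, polar_comm (⇑Q₀) u e, polar_comm Q (cv f) x]
    ring
  rw [e1]; exact h1

theorem perp_rat (he : Q₀ e = 0) (he0 : e ≠ 0) (hf : Q₀ f = 0) (hef : polar Q₀ e f = 1) {g : GL ι F} (hg : g ∈ H)
    (hge : (g : Matrix ι ι F) *ᵥ cv e = cv e) {y : ι → F₀} (hye : polar Q₀ e y = 0) :
    Rt F₀ ((g : Matrix ι ι F) *ᵥ cv y) := by
  have S := T.toSetting
  -- preimages of vectors orthogonal to the hyperbolic pair
  have key : ∀ z : ι → F₀, Q₀ z = 0 → polar Q₀ z e = 0 → polar Q₀ z f = 0 →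
      z ∉ Submodule.span F₀ {e, f} → Rt F₀ ((g : Matrix ι ι F) *ᵥ cv z) := by
    intro z hz hze hzf hzef
    obtain ⟨z₂, h2, h2e, h2f, h2z, -, h2U⟩ := exists_out S e f z 0
    obtain ⟨me, mf, mz, -⟩ := mem4 (a := e) (b := f) (c := z) (d := (0 : ι → F₀))
    have hgi : ((g⁻¹ : GL ι F) : Matrix ι ι F) *ᵥ cv e = cv e := by
      conv_lhs => rw [← hge]
      exact inv_mulVec_cancel g _
    have hgO := S.le hg
    -- images
    obtain ⟨α, hα⟩ : ∃ α, polar Q ((g : Matrix ι ι F) *ᵥ cv z) (cv f) = α := ⟨_, rfl⟩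
    obtain ⟨α₂, hα₂⟩ : ∃ α, polar Q ((g : Matrix ι ι F) *ᵥ cv z₂) (cv f) = α := ⟨_, rfl⟩
    obtain ⟨a, ha⟩ := exists_cv (proj_rat T he he0 hf hef hg hge (y := z) (by rw [polar_comm, hze]))
    obtain ⟨b, hb⟩ := exists_cv (proj_rat T he he0 hf hef hg hge (y := z₂) (by rw [polar_comm, h2e]))
    rw [hα] at ha
    rw [hα₂] at hb
    have hga : ((g⁻¹ : GL ι F) : Matrix ι ι F) *ᵥ cv a = cv z - α • cv e := by
      rw [ha, mulVec_sub, mulVec_smul, inv_mulVec_cancel, hgi]
    have hgb : ((g⁻¹ : GL ι F) : Matrix ι ι F) *ᵥ cv b = cv z₂ - α₂ • cv e := by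
      rw [hb, mulVec_sub, mulVec_smul, inv_mulVec_cancel, hgi]
    have hiO := inv_mem hgO
    have pez : polar Q (cv e) (cv z) = 0 := by rw [polar_comm]; exact p_zero S hze
    have pe2 : polar Q (cv e) (cv z₂) = 0 := by rw [polar_comm]; exact p_zero S h2e
    have pz2 : polar Q (cv z) (cv z₂) = 0 := by rw [polar_comm]; exact p_zero S h2z
    have qa : Q₀ a = 0 := Subtype.ext (by
      rw [← S.cast, ← (polar_omega hiO).1, hga, CfsgLib.Forms.map_sub', q_zero S hz, QuadraticMap.map_smul,
        q_zero S he, polar_smul_right, p_zero S hze]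
      simp)
    have qb : Q₀ b = 0 := Subtype.ext (by
      rw [← S.cast, ← (polar_omega hiO).1, hgb, CfsgLib.Forms.map_sub', q_zero S h2, QuadraticMap.map_smul,
        q_zero S he, polar_smul_right, p_zero S h2e]
      simp)
    have pab : polar Q₀ a b = 0 := Subtype.ext (by
      rw [← polar_cv S, ← (polar_omega hiO).2, hga, hgb]
      simp [polar_sub_left, polar_sub_right, polar_smul_left, polar_smul_right, pz2, pez, pe2,
        polar_comm Q (cv z) (cv e), polar_self, q_zero S he])
    have h1 := rootIn_map (inv_mem hg) hiO (root_rat S qa qb pab)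
    rw [hga, hgb] at h1
    set d := α₂ • cv z + (-α) • cv z₂ with hd
    have qA : Q (cv z - α • cv e) = 0 := by rw [← hga, (polar_omega hiO).1, q_zero S qa]
    have qB : Q (cv z₂ - α₂ • cv e) = 0 := by rw [← hgb, (polar_omega hiO).1, q_zero S qb]
    have pAB : polar Q (cv z - α • cv e) (cv z₂ - α₂ • cv e) = 0 := by
      rw [← hga, ← hgb, (polar_omega hiO).2, p_zero S pab]
    obtain ⟨g₁, -, e₁⟩ := exists_isRoot S.nd (five_le S) qA qB pAB
    obtain ⟨g₀, -, e₀⟩ := exists_isRoot S.nd (five_le S) (q_zero S hz) (q_zero S h2) pz2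
    have hroot : RootIn Q H (cv e) d := by
      intro g' hg'
      rw [show g' = g₁ * g₀⁻¹ from gl_ext fun v => by
        rw [hg', Units.val_mul, ← mulVec_mulVec, root_formula_inv (q_zero S hz) (q_zero S h2) pz2 e₀, e₁, hd]
        simp only [polar_add_left, polar_add_right, polar_sub_left, polar_sub_right, polar_smul_left,
          polar_smul_right, polar_comm Q (cv z) (cv e), polar_comm Q (cv z₂) (cv e), polar_comm Q (cv z₂) (cv z),
          pez, pe2, pz2, polar_self, q_zero S he, q_zero S hz, q_zero S h2, smul_eq_mul]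
        module]
      exact mul_mem (h1 g₁ e₁) (inv_mem (root_rat S hz h2 (by rw [polar_comm, h2z]) g₀ e₀))
    have hαF : α ∈ F₀ := by
      have h' : RootIn Q H (cv e) ((-α) • cv z₂ + α₂ • cv z) := by rwa [add_comm, ← hd]
      have := isolate T he he0 h2 hz (by rw [polar_comm, h2e]) (by rw [polar_comm, hze]) h2z
        (fun h => h2U (pair_le me mz h)) h'
      simpa using neg_mem this
    rw [show (g : Matrix ι ι F) *ᵥ cv z = cv a + α • cv e by rw [ha]; abel]
    exact rt_add (rt_cv a) (rt_smul hαF (rt_cv e))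
  let Z : Submodule F₀ (ι → F₀) :=
    { carrier := {u | Rt F₀ ((g : Matrix ι ι F) *ᵥ cv u)}
      add_mem' := fun {u v} hu hv => by
        show Rt F₀ _
        rw [cv_add, mulVec_add]; exact rt_add hu hv
      zero_mem' := by
        show Rt F₀ _
        rw [cv_zero, mulVec_zero]; exact fun _ => zero_mem _
      smul_mem' := fun κ u hu => by
        show Rt F₀ _
        rw [cv_smul, mulVec_smul]; exact rt_smul (SetLike.coe_mem κ) hu }
  set y' := y - polar Q₀ f y • e with hy'
  have h1 : y' ∈ Z := span_perp S (x := e) (z := f) Z (fun z hz a b c => key z hz a b c)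
    (by rw [hy', polar_comm (⇑Q₀) _ e, polar_sub_right, polar_smul_right, hye, polar_self, he]; simp)
    (by rw [hy', polar_comm (⇑Q₀) _ f, polar_sub_right, polar_smul_right, polar_comm (⇑Q₀) f e, hef, smul_eq_mul,
      mul_one, sub_self])
  have e1 : cv y = cv y' + ((polar Q₀ f y : F₀) : F) • cv e := by
    rw [← cv_smul, ← cv_add, hy', sub_add_cancel]
  rw [e1, mulVec_add, mulVec_smul, hge]
  exact rt_add h1 (rt_smul (SetLike.coe_mem _) (rt_cv e))

omit e f in
/-- An element of `H` fixing a non-zero singular rational vector is rational. -/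
theorem fix_isR {g : GL ι F} (hg : g ∈ H) {e : ι → F₀} (he : Q₀ e = 0) (he0 : e ≠ 0)
    (hge : (g : Matrix ι ι F) *ᵥ cv e = cv e) : IsR F₀ g := by
  have S := T.toSetting
  obtain ⟨f, hf, -, -, hef⟩ := exists_dual S (y := e) (x := 0) (z := 0) (by
    rw [Set.pair_eq_singleton, Submodule.mem_span_singleton]
    rintro ⟨c, h⟩; exact he0 (by rw [← h, smul_zero]))
  have hgO := S.le hg
  have hgi : ((g⁻¹ : GL ι F) : Matrix ι ι F) *ᵥ cv e = cv e := by
    conv_lhs => rw [← hge]
    exact inv_mulVec_cancel g _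
  have pef : polar Q (cv e) (cv f) = 1 := by rw [polar_cv S, hef]; rfl
  set x := (g : Matrix ι ι F) *ᵥ cv f with hx
  have hex : polar Q (cv e) x = 1 := by rw [hx, ← hge, (polar_omega hgO).2, pef]
  set α := polar Q x (cv f)
  set w := x - α • cv e - cv f with hw
  have hwe : polar Q (cv e) w = 0 := by
    rw [hw, polar_sub_right, polar_sub_right, polar_smul_right, hex, pef, polar_self, q_zero S he]; simp
  have hwf : polar Q (cv f) w = 0 := by
    rw [hw, polar_sub_right, polar_sub_right, polar_smul_right, polar_comm Q (cv f) (cv e), pef, polar_self,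
      q_zero S hf, polar_comm Q (cv f) x]
    simp [α]
  have hwR : Rt F₀ w := rt_of_polar S fun u => by
    set u' := u - polar Q₀ e u • f - polar Q₀ f u • e with hu'
    have he' : polar Q₀ e u' = 0 := by
      rw [hu', polar_sub_right, polar_sub_right, polar_smul_right, polar_smul_right, hef, polar_self, he]; simp
    have hf' : polar Q₀ f u' = 0 := by
      rw [hu', polar_sub_right, polar_sub_right, polar_smul_right, polar_smul_right, polar_comm (⇑Q₀) f e, hef,
        polar_self, hf]
      simp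
    obtain ⟨b, hb⟩ := exists_cv (perp_rat T he he0 hf hef (inv_mem hg) hgi he')
    have h1 : polar Q (cv u') x ∈ F₀ := by
      rw [show cv u' = (g : Matrix ι ι F) *ᵥ cv b by rw [hb, mulVec_inv_cancel], hx, (polar_omega hgO).2]
      exact rt_polar S (rt_cv b) (rt_cv f)
    have e1 : polar Q (cv u) w = polar Q (cv u') w := by
      rw [hu']
      simp only [sub_eq_add_neg, cv_add, cv_neg, cv_smul, polar_add_left, polar_neg_left, polar_smul_left, hwe, hwf,
        smul_zero, neg_zero, add_zero]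
    rw [e1, hw, polar_sub_right, polar_sub_right, polar_smul_right, p_zero S (by rw [polar_comm, he'] :
      polar Q₀ u' e = 0), p_zero S (by rw [polar_comm, hf'] : polar Q₀ u' f = 0)]
    simpa using h1
  have hα : α ∈ F₀ := by
    have h1 : Q x = 0 := by rw [hx, (polar_omega hgO).1, q_zero S hf]
    rw [show x = α • cv e + cv f + w by rw [hw]; abel, QuadraticMap.map_add (⇑Q), QuadraticMap.map_add (⇑Q),
      QuadraticMap.map_smul, q_zero S he, q_zero S hf, polar_smul_left, pef, polar_add_left, polar_smul_left, hwe,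
      hwf] at h1
    simp at h1
    rw [show α = -Q w by linear_combination h1]
    obtain ⟨b, hb⟩ := exists_cv hwR
    rw [← hb, S.cast]
    exact neg_mem (SetLike.coe_mem _)
  have hxR : Rt F₀ x := by
    rw [show x = α • cv e + cv f + w by rw [hw]; abel]
    exact rt_add (rt_add (rt_smul hα (rt_cv e)) (rt_cv f)) hwR
  intro z hz
  obtain ⟨u, rfl⟩ := exists_cv hz
  set u' := u - polar Q₀ e u • f with hu'
  have h1 := perp_rat T he he0 hf hef hg hge (y := u') (by
    rw [hu', polar_sub_right, polar_smul_right, hef, smul_eq_mul, mul_one, sub_self])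
  have e1 : cv u = cv u' + ((polar Q₀ e u : F₀) : F) • cv f := by
    rw [← cv_smul, ← cv_add, hu', sub_add_cancel]
  rw [e1, mulVec_add, mulVec_smul, ← hx]
  exact rt_add h1 (rt_smul (SetLike.coe_mem _) hxR)

end CfsgLib.SubMaxO
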