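import Mathlib
import Cfsg.Agent.SubMaxO.Fix
import Cfsg.Agent.SubMax.RankOne

/-!
Every root element of `H` has a rational singular line orthogonal to it.
-/

set_option autoImplicit false

open QuadraticMap

namespace CfsgLib.SubMaxO

open Matrix CfsgLib.GeoOrth CfsgLib.Forms CfsgLib.GeoFull

variable {ι : Type} [Fintype ι] [DecidableEq ι] {F : Type*} [Field F] [Fintype F] {F₀ : Subfield F} {r : ℕ}

theorem mem_of_cubic (hr : r.Prime) (hr4 : 4 ≤ r) (hcard : Fintype.card F = Nat.card F₀ ^ r) {x a b c : F}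
    (ha : a ∈ F₀) (hb : b ∈ F₀) (hc : c ∈ F₀) (h : x * x * x = a * (x * x) + b * x + c) : x ∈ F₀ := by
  by_contra hx
  let R : Subring F :=
    { carrier := {z | ∃ u ∈ F₀, ∃ v ∈ F₀, ∃ w ∈ F₀, z = u + v * x + w * (x * x)}
      one_mem' := ⟨1, one_mem _, 0, zero_mem _, 0, zero_mem _, by simp⟩
      zero_mem' := ⟨0, zero_mem _, 0, zero_mem _, 0, zero_mem _, by simp⟩
      add_mem' := by
        rintro _ _ ⟨u, hu, v, hv, w, hw, rfl⟩ ⟨u', hu', v', hv', w', hw', rfl⟩
        exact ⟨u + u', add_mem hu hu', v + v', add_mem hv hv', w + w', add_mem hw hw', by ring⟩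
      neg_mem' := by
        rintro _ ⟨u, hu, v, hv, w, hw, rfl⟩
        exact ⟨-u, neg_mem hu, -v, neg_mem hv, -w, neg_mem hw, by ring⟩
      mul_mem' := by
        rintro _ _ ⟨u, hu, v, hv, w, hw, rfl⟩ ⟨u', hu', v', hv', w', hw', rfl⟩
        have h3 := add_mem (mul_mem hv hw') (mul_mem hw hv')
        have h4 := mul_mem hw hw'
        exact ⟨u * u' + (v * w' + w * v') * c + w * w' * (a * c),
          add_mem (add_mem (mul_mem hu hu') (mul_mem h3 hc)) (mul_mem h4 (mul_mem ha hc)),
          u * v' + v * u' + (v * w' + w * v') * b + w * w' * (a * b + c),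
          add_mem (add_mem (add_mem (mul_mem hu hv') (mul_mem hv hu')) (mul_mem h3 hb))
            (mul_mem h4 (add_mem (mul_mem ha hb) hc)),
          u * w' + w * u' + v * v' + (v * w' + w * v') * a + w * w' * (a * a + b),
          add_mem (add_mem (add_mem (add_mem (mul_mem hu hw') (mul_mem hw hu')) (mul_mem hv hv')) (mul_mem h3 ha))
            (mul_mem h4 (add_mem (mul_mem ha ha) hb)),
          by linear_combination (v * w' + w * v' + w * w' * (x + a)) * h⟩ }
  have htop := (SubMaxSp.ring_dichotomy hr hcard R fun z hz =>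
    ⟨z, hz, 0, zero_mem _, 0, zero_mem _, by simp⟩).resolve_right fun h0 =>
      hx (h0 x ⟨0, zero_mem _, 1, one_mem _, 0, zero_mem _, by simp⟩)
  have hle : Nat.card F ≤ Nat.card F₀ * (Nat.card F₀ * Nat.card F₀) := by
    rw [← Nat.card_prod, ← Nat.card_prod]
    refine Nat.card_le_card_of_surjective
      (fun uv : F₀ × F₀ × F₀ => (uv.1 : F) + uv.2.1 * x + uv.2.2 * (x * x)) fun z => ?_
    obtain ⟨u, hu, v, hv, w, hw, rfl⟩ : z ∈ R := htop ▸ Subring.mem_top z
    exact ⟨(⟨u, hu⟩, ⟨v, hv⟩, ⟨w, hw⟩), rfl⟩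
  rw [Nat.card_eq_fintype_card, hcard,
    show Nat.card F₀ * (Nat.card F₀ * Nat.card F₀) = Nat.card F₀ ^ 3 by ring] at hle
  have := (Nat.pow_le_pow_iff_right (Finite.one_lt_card (α := F₀))).1 hle
  omega

/-- Eigenvalues of small rational matrices are rational. -/
theorem eigen_rat (hr : r.Prime) (hr4 : 4 ≤ r) (hcard : Fintype.card F = Nat.card F₀ ^ r)
    {M : Matrix (Fin 3) (Fin 3) F} (hM : ∀ i j, M i j ∈ F₀) {v : Fin 3 → F} (hv : v ≠ 0) {x : F}
    (h : M *ᵥ v = x • v) : x ∈ F₀ := by
  have h0 : (M - x • (1 : Matrix (Fin 3) (Fin 3) F)).det = 0 :=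
    Matrix.exists_mulVec_eq_zero_iff.1 ⟨v, hv, by rw [sub_mulVec, h, smul_mulVec, one_mulVec, sub_self]⟩
  rw [det_fin_three] at h0
  simp at h0
  have hdet : M.det ∈ F₀ := by
    rw [det_apply]
    exact Subfield.sum_mem _ fun σ _ => by
      rw [Units.smul_def]
      exact zsmul_mem (Subfield.prod_mem _ fun i _ => hM _ _) _
  refine mem_of_cubic hr hr4 hcard (a := M 0 0 + M 1 1 + M 2 2) (add_mem (add_mem (hM 0 0) (hM 1 1)) (hM 2 2))
    (b := -(M 0 0 * M 1 1 - M 0 1 * M 1 0 + (M 0 0 * M 2 2 - M 0 2 * M 2 0) + (M 1 1 * M 2 2 - M 1 2 * M 2 1)))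
    (neg_mem (add_mem (add_mem (sub_mem (mul_mem (hM _ _) (hM _ _)) (mul_mem (hM _ _) (hM _ _)))
      (sub_mem (mul_mem (hM _ _) (hM _ _)) (mul_mem (hM _ _) (hM _ _))))
      (sub_mem (mul_mem (hM _ _) (hM _ _)) (mul_mem (hM _ _) (hM _ _))))) hdet ?_
  rw [det_fin_three]
  linear_combination -h0

variable {Q : QuadraticForm F (ι → F)} {Q₀ : QuadraticForm F₀ (ι → F₀)} {H : Subgroup (GL ι F)}
variable (T : Tight Q Q₀ H) (hr : r.Prime) (hcard : Fintype.card F = Nat.card F₀ ^ r)
include T hr hcard

omit hr in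
/-- Without a rational singular vector orthogonal to both, the index is large. -/
theorem six_le {u v : ι → F}
    (hgen : ∀ z : ι → F₀, Q₀ z = 0 → polar Q (cv z) u = 0 → polar Q (cv z) v = 0 → z = 0) : 6 ≤ r := by
  have S := T.toSetting
  let Φ : (ι → F₀) →ₗ[F₀] F × F :=
    { toFun := fun z => (polar Q (cv z) u, polar Q (cv z) v)
      map_add' := fun z z' => by simp [cv_add, polar_add_left]
      map_smul' := fun κ z => by simp [cv_smul, polar_smul_left, Subfield.smul_def] }
  haveI : Fintype F₀ := Fintype.ofFinite F₀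
  have hF : Module.finrank F₀ F = r := by
    have h1 : Fintype.card F = Nat.card F₀ ^ Module.finrank F₀ F := by
      rw [Nat.card_eq_fintype_card]; exact Module.card_eq_pow_finrank (K := F₀) (V := F)
    rw [hcard] at h1
    exact (Nat.pow_right_injective (Finite.one_lt_card (α := F₀)) h1).symm
  have hker : Module.finrank F₀ (LinearMap.ker Φ) ≤ 2 := by
    by_contra hlt
    obtain ⟨z, hz, hz0, hzQ⟩ := exists_singular Q₀ (LinearMap.ker Φ) (by omega)
    have h1 : Φ z = 0 := hz
    exact hz0 (hgen z hzQ (congrArg Prod.fst h1) (congrArg Prod.snd h1))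
  have h2 : Module.finrank F₀ (LinearMap.range Φ) ≤ Module.finrank F₀ (F × F) := Submodule.finrank_le _
  rw [Module.finrank_prod, hF] at h2
  have h3 := Φ.finrank_range_add_finrank_ker
  rw [Module.finrank_fintype_fun_eq_card] at h3
  have := S.big
  omega

/-- No root element is in general position. -/
theorem no_generic {u v : ι → F} (hu : Q u = 0) (hv : Q v = 0) (huv : polar Q u v = 0)
    (hind : ∀ a b : F, a • u + b • v = 0 → a = 0 ∧ b = 0) (hy : RootIn Q H u v)
    (hgen : ∀ z : ι → F₀, Q₀ z = 0 → polar Q (cv z) u = 0 → polar Q (cv z) v = 0 → z = 0) : False := by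
  classical
  have S := T.toSetting
  have hr6 := six_le T hcard hgen
  have hr4 : 4 ≤ r := by omega
  let mnr : (ι → F₀) → (ι → F₀) → F := fun a b =>
    polar Q (cv a) u * polar Q (cv b) v - polar Q (cv a) v * polar Q (cv b) u
  -- a pair meeting both
  obtain ⟨a, b, qa, qb, pab, hD⟩ : ∃ a b : ι → F₀, Q₀ a = 0 ∧ Q₀ b = 0 ∧ polar Q₀ a b = 0 ∧ mnr a b ≠ 0 := by
    by_contra hall
    push Not at hall
    obtain ⟨a, qa, ha0⟩ := exists_singular_ne_zero S
    have hfa : polar Q (cv a) u ≠ 0 ∨ polar Q (cv a) v ≠ 0 := by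
      by_contra hc
      push Not at hc
      exact ha0 (hgen a qa hc.1 hc.2)
    have hm : ∀ b, Q₀ b = 0 → mnr a b = 0 := by
      intro b qb
      obtain ⟨c, qc, ca, cb, -, -, cU⟩ := exists_out S a b 0 0
      have hc0 : c ≠ 0 := fun e => cU (by rw [e]; exact Submodule.zero_mem _)
      have h1 := hall a c qa qc (by rw [polar_comm, ca])
      have h2 := hall b c qb qc (by rw [polar_comm, cb])
      simp only [mnr] at h1 h2 ⊢
      by_cases hcu : polar Q (cv c) u = 0
      · have hcv : polar Q (cv c) v ≠ 0 := fun e => hc0 (hgen c qc hcu e)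
        refine (mul_eq_zero.1 (show polar Q (cv c) v *
          (polar Q (cv a) u * polar Q (cv b) v - polar Q (cv a) v * polar Q (cv b) u) = 0 from ?_)).resolve_left hcv
        linear_combination (polar Q (cv b) v) * h1 - (polar Q (cv a) v) * h2
      · refine (mul_eq_zero.1 (show polar Q (cv c) u *
          (polar Q (cv a) u * polar Q (cv b) v - polar Q (cv a) v * polar Q (cv b) u) = 0 from ?_)).resolve_left hcu
        linear_combination (polar Q (cv b) u) * h1 - (polar Q (cv a) u) * h2
    let Z : Submodule F₀ (ι → F₀) :=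
      { carrier := {b | mnr a b = 0}
        add_mem' := fun {b c} hb hc => by
          show mnr a (b + c) = 0
          have hb' : mnr a b = 0 := hb
          have hc' : mnr a c = 0 := hc
          simp only [mnr, cv_add, polar_add_left] at hb' hc' ⊢
          linear_combination hb' + hc'
        zero_mem' := by
          show mnr a 0 = 0
          simp [mnr, cv_zero]
        smul_mem' := fun κ b hb => by
          show mnr a (κ • b) = 0
          have hb' : mnr a b = 0 := hb
          simp only [mnr, cv_smul, polar_smul_left, smul_eq_mul] at hb' ⊢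
          linear_combination (κ : F) * hb' }
    have hall' : ∀ b, mnr a b = 0 := fun b => span_perp S (x := 0) (z := 0) Z (fun e he _ _ _ => hm e he)
      (polar_zero_right _ _) (polar_zero_right _ _)
    have h0 : polar Q (cv a) u • v + (-polar Q (cv a) v) • u = 0 := eq_zero_of_polar S fun w => by
      have := hall' w
      simp only [mnr] at this
      rw [polar_add_left, polar_smul_left, polar_smul_left, polar_comm Q v, polar_comm Q u, smul_eq_mul, smul_eq_mul]
      linear_combination this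
    rw [add_comm] at h0
    obtain ⟨e1, e2⟩ := hind _ _ h0
    rcases hfa with h | h
    · exact h e2
    · exact h (by simpa using e1)
  obtain ⟨c, qc, ca, cb, -, -, cU⟩ := exists_out S a b 0 0
  have ma := (mem4 (a := a) (b := b) (c := (0 : ι → F₀)) (d := 0)).1
  have mb := (mem4 (a := a) (b := b) (c := (0 : ι → F₀)) (d := 0)).2.1
  have ha0 : a ≠ 0 := fun e => hD (by simp [mnr, e, cv_zero])
  have hba : b ∉ Submodule.span F₀ {a} := fun h => by
    obtain ⟨κ, rfl⟩ := Submodule.mem_span_singleton.1 h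
    exact hD (by simp only [mnr, cv_smul, polar_smul_left, smul_eq_mul]; ring)
  obtain ⟨wA, -, wAb, wAc, awA⟩ := exists_dual S (not_mem_pair mb ma cU (swap_not_mem ha0 hba))
  obtain ⟨wB, -, wBa, wBc, bwB⟩ := exists_dual S (not_mem_pair ma mb cU hba)
  obtain ⟨wC, -, wCa, wCb, cwC⟩ := exists_dual S (y := c) (x := a) (z := b) (fun h => cU (pair_le ma mb h))
  set A := cv a
  set B := cv b
  set Cc := cv c
  set gA := cv wA
  set gB := cv wB
  set gC := cv wC
  have one_eq : ∀ {x y : ι → F₀}, polar Q₀ x y = 1 → polar Q (cv x) (cv y) = 1 := fun {x y} h => by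
    rw [polar_cv S, h]; rfl
  have AgA : polar Q A gA = 1 := one_eq awA
  have BgB : polar Q B gB = 1 := one_eq bwB
  have CgC : polar Q Cc gC = 1 := one_eq cwC
  have BgA : polar Q B gA = 0 := by rw [polar_comm]; exact p_zero S wAb
  have CgA : polar Q Cc gA = 0 := by rw [polar_comm]; exact p_zero S wAc
  have AgB : polar Q A gB = 0 := by rw [polar_comm]; exact p_zero S wBa
  have CgB : polar Q Cc gB = 0 := by rw [polar_comm]; exact p_zero S wBc
  have AgC : polar Q A gC = 0 := by rw [polar_comm]; exact p_zero S wCa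
  have BgC : polar Q B gC = 0 := by rw [polar_comm]; exact p_zero S wCb
  let InS : (ι → F) → Prop := fun x => x = polar Q x gA • A + polar Q x gB • B + polar Q x gC • Cc
  have sA : InS A := by simp [InS, AgA, AgB, AgC]
  have sB : InS B := by simp [InS, BgA, BgB, BgC]
  have sC : InS Cc := by simp [InS, CgA, CgB, CgC]
  have hcomb : ∀ (s t : F) (x y : ι → F), InS x → InS y → InS (s • x + t • y) := by
    intro s t x y hx hy
    show s • x + t • y = _
    conv_lhs => rw [show x = _ from hx, show y = _ from hy]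
    simp only [polar_add_left, polar_smul_left, smul_eq_mul]
    module
  have hsing : ∀ x y, InS x → InS y → polar Q x y = 0 := by
    intro x y hx hy
    rw [show x = _ from hx, show y = _ from hy]
    simp only [A, B, Cc, polar_add_left, polar_add_right, polar_smul_left, polar_smul_right, p_zero S pab,
      p_zero S (show polar Q₀ b a = 0 by rw [polar_comm, pab]), p_zero S ca, p_zero S cb,
      p_zero S (show polar Q₀ a c = 0 by rw [polar_comm, ca]), p_zero S (show polar Q₀ b c = 0 by rw [polar_comm, cb]),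
      polar_self, q_zero S qa, q_zero S qb, q_zero S qc]
    simp
  have hQS : ∀ x, InS x → Q x = 0 := by
    intro x hx
    have e1 : polar Q (polar Q x gA • A) (polar Q x gB • B) = 0 := by
      rw [polar_smul_left, polar_smul_right, hsing _ _ sA sB]; simp
    rw [show x = _ from hx, QuadraticMap.map_add (⇑Q), QuadraticMap.map_add (⇑Q), QuadraticMap.map_smul,
      QuadraticMap.map_smul, QuadraticMap.map_smul, q_zero S qa, q_zero S qb, q_zero S qc, e1, polar_add_left,
      polar_smul_left, polar_smul_left, polar_smul_right, polar_smul_right, hsing _ _ sA sC, hsing _ _ sB sC]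
    simp
  -- the frame
  set D := mnr a b with hDdef
  set e : ι → F := D⁻¹ • (polar Q B v • A + (-polar Q A v) • B) with he
  set e' : ι → F := D⁻¹ • ((-polar Q B u) • A + polar Q A u • B) with he'
  set l : ι → F := Cc + (-1 : F) • (polar Q Cc u • e + polar Q Cc v • e') with hl
  have se : InS e := by
    have := hcomb D⁻¹ 0 _ _ (hcomb (polar Q B v) (-polar Q A v) A B sA sB) sA
    simpa [he] using this
  have se' : InS e' := by
    have := hcomb D⁻¹ 0 _ _ (hcomb (-polar Q B u) (polar Q A u) A B sA sB) sA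
    simpa [he'] using this
  have sl : InS l := by
    have := hcomb 1 (-1) _ _ sC (hcomb (polar Q Cc u) (polar Q Cc v) e e' se se')
    simpa [hl] using this
  have hDe : D = polar Q A u * polar Q B v - polar Q A v * polar Q B u := rfl
  have eu : polar Q e u = 1 := by
    rw [he, polar_smul_left, polar_add_left, polar_smul_left, polar_smul_left, smul_eq_mul, smul_eq_mul, smul_eq_mul,
      show polar Q B v * polar Q A u + -polar Q A v * polar Q B u = D by rw [hDe]; ring, inv_mul_cancel₀ hD]
  have ev : polar Q e v = 0 := by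
    rw [he, polar_smul_left, polar_add_left, polar_smul_left, polar_smul_left, smul_eq_mul, smul_eq_mul, smul_eq_mul]
    ring
  have e'u : polar Q e' u = 0 := by
    rw [he', polar_smul_left, polar_add_left, polar_smul_left, polar_smul_left, smul_eq_mul, smul_eq_mul, smul_eq_mul]
    ring
  have e'v : polar Q e' v = 1 := by
    rw [he', polar_smul_left, polar_add_left, polar_smul_left, polar_smul_left, smul_eq_mul, smul_eq_mul, smul_eq_mul,
      show -polar Q B u * polar Q A v + polar Q A u * polar Q B v = D by rw [hDe]; ring, inv_mul_cancel₀ hD]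
  have lu : polar Q l u = 0 := by
    simp only [hl, polar_add_left, polar_smul_left, eu, e'u, smul_eq_mul]; ring
  have lv : polar Q l v = 0 := by
    simp only [hl, polar_add_left, polar_smul_left, ev, e'v, smul_eq_mul]; ring
  have egC : polar Q e gC = 0 := by simp [he, polar_add_left, polar_smul_left, AgC, BgC]
  have e'gC : polar Q e' gC = 0 := by simp [he', polar_add_left, polar_smul_left, AgC, BgC]
  have lgC : polar Q l gC = 1 := by simp [hl, polar_add_left, polar_smul_left, CgC, egC, e'gC]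
  have eA : polar Q A u • e + polar Q A v • e' = A := by
    rw [he, he']
    match_scalars <;> field_simp <;> rw [hDe] <;> ring
  have eB : polar Q B u • e + polar Q B v • e' = B := by
    rw [he, he']
    match_scalars <;> field_simp <;> rw [hDe] <;> ring
  have hS : ∀ x, InS x → x = polar Q x u • e + polar Q x v • e' + polar Q x gC • l := by
    intro x hx
    have hux : polar Q x u = polar Q x gA * polar Q A u + polar Q x gB * polar Q B u +
        polar Q x gC * polar Q Cc u := by
      conv_lhs => rw [show x = _ from hx]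
      simp only [polar_add_left, polar_smul_left, smul_eq_mul]
    have hvx : polar Q x v = polar Q x gA * polar Q A v + polar Q x gB * polar Q B v +
        polar Q x gC * polar Q Cc v := by
      conv_lhs => rw [show x = _ from hx]
      simp only [polar_add_left, polar_smul_left, smul_eq_mul]
    rw [hux, hvx, hl]
    conv_lhs => rw [show x = _ from hx, ← eA, ← eB]
    module
  set l₁ := polar Q l gA
  set l₂ := polar Q l gB
  have hl12 : l = l₁ • A + l₂ • B + Cc := by
    conv_lhs => rw [show l = _ from sl, lgC, one_smul]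
  have hlrat : ∀ κ : F, Rt F₀ (κ • l) → κ = 0 := by
    intro κ hκ
    by_contra hne
    have hκF : κ ∈ F₀ := by
      have h := rt_polar S hκ (rt_cv wC)
      rwa [polar_smul_left, lgC, smul_eq_mul, mul_one] at h
    obtain ⟨z, hz⟩ : ∃ z : ι → F₀, cv z = l := exists_cv fun k => by
      have := mul_mem (inv_mem hκF) (hκ k)
      rwa [Pi.smul_apply, smul_eq_mul, ← mul_assoc, inv_mul_cancel₀ hne, one_mul] at this
    have hz0 := hgen z (Subtype.ext (by rw [← S.cast, hz, hQS l sl]; rfl)) (by rw [hz, lu]) (by rw [hz, lv])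
    rw [hz0, cv_zero] at hz
    rw [← hz, polar_zero_left] at lgC
    exact zero_ne_one lgC
  clear_value e e' l
  -- dot products in the frame
  have ee : polar Q e e = 0 := hsing _ _ se se
  have ee' : polar Q e e' = 0 := hsing _ _ se se'
  have e'e : polar Q e' e = 0 := hsing _ _ se' se
  have e'e' : polar Q e' e' = 0 := hsing _ _ se' se'
  have el : polar Q e l = 0 := hsing _ _ se sl
  have e'l : polar Q e' l = 0 := hsing _ _ se' sl
  have le' : polar Q l e' = 0 := hsing _ _ sl se'
  have le : polar Q l e = 0 := hsing _ _ sl se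
  have ll : polar Q l l = 0 := hsing _ _ sl sl
  have uu : polar Q u u = 0 := by rw [polar_self, hu]; simp
  have vv : polar Q v v = 0 := by rw [polar_self, hv]; simp
  have vu : polar Q v u = 0 := by rw [polar_comm, huv]
  have ue : polar Q u e = 1 := by rw [polar_comm, eu]
  have ue' : polar Q u e' = 0 := by rw [polar_comm, e'u]
  have ve : polar Q v e = 0 := by rw [polar_comm, ev]
  have ve' : polar Q v e' = 1 := by rw [polar_comm, e'v]
  have ul : polar Q u l = 0 := by rw [polar_comm, lu]
  have vl : polar Q v l = 0 := by rw [polar_comm, lv]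
  let ψ : (ι → F) → F := fun x => polar Q x u
  let φ : (ι → F) → F := fun x => polar Q x e'
  let M₂ : GL ι F → Matrix (Fin 2) (Fin 2) F := fun g =>
    !![ψ ((g : Matrix ι ι F) *ᵥ e), ψ ((g : Matrix ι ι F) *ᵥ v);
      φ ((g : Matrix ι ι F) *ᵥ e), φ ((g : Matrix ι ι F) *ᵥ v)]
  let Fix : GL ι F → Prop := fun g => g ∈ Cfsg.Geo.omegaGL ⇑Q ∧ (g : Matrix ι ι F) *ᵥ l = l ∧
    (∀ x, polar Q x e = 0 → polar Q x e' = 0 → polar Q x u = 0 → polar Q x v = 0 → polar Q x l = 0 →
      (g : Matrix ι ι F) *ᵥ x = x) ∧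
    (∃ s t κ : F, (g : Matrix ι ι F) *ᵥ e = s • e + t • v + κ • l) ∧
    (∃ s t κ : F, (g : Matrix ι ι F) *ᵥ v = s • e + t • v + κ • l) ∧
    (∃ s t κ : F, (g : Matrix ι ι F) *ᵥ e' = s • e' + t • u + κ • l) ∧
    (∃ s t κ : F, (g : Matrix ι ι F) *ᵥ u = s • e' + t • u + κ • l)
  have hψφ : ∀ s t κ : F, ψ (s • e + t • v + κ • l) = s ∧ φ (s • e + t • v + κ • l) = t := fun s t κ => by
    constructor <;> simp [ψ, φ, polar_add_left, polar_smul_left, eu, vu, lu, ee', ve', le']
  have hM2 : ∀ g g' : GL ι F, Fix g → Fix g' → M₂ (g * g') = M₂ g * M₂ g' := by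
    intro g g' hg hg'
    obtain ⟨-, hgl, -, ⟨a1, b1, k1, g1⟩, ⟨a2, b2, k2, g2⟩, -, -⟩ := hg
    obtain ⟨-, -, -, ⟨c1, d1, m1, g1'⟩, ⟨c2, d2, m2, g2'⟩, -, -⟩ := hg'
    have key : ∀ s t κ : F, (g : Matrix ι ι F) *ᵥ (s • e + t • v + κ • l) =
        (s * a1 + t * a2) • e + (s * b1 + t * b2) • v + (s * k1 + t * k2 + κ) • l := fun s t κ => by
      rw [mulVec_add, mulVec_add, mulVec_smul, mulVec_smul, mulVec_smul, g1, g2, hgl]; module
    ext i j
    fin_cases i <;> fin_cases j <;>
      simp [M₂, Matrix.mul_apply, Fin.sum_univ_two, ← mulVec_mulVec, g1, g2, g1', g2', key, (hψφ _ _ _).1,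
        (hψφ _ _ _).2] <;> ring
  have hM1 : M₂ 1 = 1 := by
    ext i j
    fin_cases i <;> fin_cases j <;> simp [M₂, ψ, φ, eu, vu, ee', ve']
  have hFixMul : ∀ g g', Fix g → Fix g' → Fix (g * g') := by
    intro g g' hg hg'
    obtain ⟨hgO, hgl, hgK, ⟨a1, b1, k1, g1⟩, ⟨a2, b2, k2, g2⟩, ⟨a3, b3, k3, g3⟩, ⟨a4, b4, k4, g4⟩⟩ := hg
    obtain ⟨hgO', hgl', hgK', ⟨c1, d1, m1, g1'⟩, ⟨c2, d2, m2, g2'⟩, ⟨c3, d3, m3, g3'⟩, ⟨c4, d4, m4, g4'⟩⟩ := hg'
    refine ⟨mul_mem hgO hgO', by rw [Units.val_mul, ← mulVec_mulVec, hgl', hgl],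
      fun x p1 p2 p3 p4 p5 => by
        rw [Units.val_mul, ← mulVec_mulVec, hgK' x p1 p2 p3 p4 p5, hgK x p1 p2 p3 p4 p5],
      ⟨c1 * a1 + d1 * a2, c1 * b1 + d1 * b2, c1 * k1 + d1 * k2 + m1, ?_⟩,
      ⟨c2 * a1 + d2 * a2, c2 * b1 + d2 * b2, c2 * k1 + d2 * k2 + m2, ?_⟩,
      ⟨c3 * a3 + d3 * a4, c3 * b3 + d3 * b4, c3 * k3 + d3 * k4 + m3, ?_⟩,
      ⟨c4 * a3 + d4 * a4, c4 * b3 + d4 * b4, c4 * k3 + d4 * k4 + m4, ?_⟩⟩ <;>
      simp only [Units.val_mul, ← mulVec_mulVec, g1', g2', g3', g4', mulVec_add, mulVec_smul, g1, g2, g3, g4, hgl] <;>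
      module
  have hFix1 : Fix 1 := ⟨one_mem _, by simp, fun x _ _ _ _ _ => by simp, ⟨1, 0, 0, by simp⟩, ⟨0, 1, 0, by simp⟩,
    ⟨1, 0, 0, by simp⟩, ⟨0, 1, 0, by simp⟩⟩
  let Gd : Subgroup (GL ι F) :=
    { carrier := {g | Fix g ∧ (M₂ g).det = 1}
      one_mem' := ⟨hFix1, by rw [hM1, det_one]⟩
      mul_mem' := fun {g g'} hg hg' => ⟨hFixMul g g' hg.1 hg'.1, by
        rw [hM2 g g' hg.1 hg'.1, det_mul, hg.2, hg'.2, one_mul]⟩
      inv_mem' := fun {g} hg => by
        have e0 : g⁻¹ = g ^ (orderOf g - 1) := by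
          rw [inv_eq_iff_mul_eq_one, ← pow_succ', Nat.sub_add_cancel (orderOf_pos g), pow_orderOf_eq_one]
        show Fix g⁻¹ ∧ (M₂ g⁻¹).det = 1
        rw [e0]
        generalize orderOf g - 1 = k
        induction k with
        | zero => exact ⟨by rw [pow_zero]; exact hFix1, by rw [pow_zero, hM1, det_one]⟩
        | succ k ih =>
          rw [pow_succ]
          exact ⟨hFixMul _ _ ih.1 hg.1, by rw [hM2 _ _ ih.1 hg.1, det_mul, ih.2, hg.2, one_mul]⟩ }
  obtain ⟨y, hyO, ey⟩ := exists_isRoot S.nd (five_le S) hu hv huv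
  have hyH : y ∈ H := hy y ey
  set J : Subgroup (GL ι F) := Subgroup.closure
    (insert y {g | g ∈ H ∧ ∃ P R, InS P ∧ InS R ∧ IsRoot Q P R g}) with hJ
  have hJH : J ≤ H := (Subgroup.closure_le _).2 (by rintro g (rfl | ⟨hg, -⟩) <;> assumption)
  have hJG : J ≤ Gd := by
    refine (Subgroup.closure_le _).2 ?_
    rintro g (rfl | ⟨hgH, P, R, hP, hR, hg⟩)
    · refine ⟨⟨hyO, by rw [ey, vl, ul]; simp, fun x _ _ p3 p4 _ => by
          rw [ey, polar_comm Q v, p4, polar_comm Q u, p3]; simp,
        ⟨1, -1, 0, by rw [ey, ve, ue]; module⟩, ⟨0, 1, 0, by rw [ey, vv, huv]; module⟩,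
        ⟨1, 1, 0, by rw [ey, ve', ue']; module⟩, ⟨0, 1, 0, by rw [ey, vu, uu]; module⟩⟩, ?_⟩
      simp [M₂, ψ, φ, det_fin_two_of, ey _, vv, huv, ve, ue, vu, uu, ve', ue', eu, ee', polar_sub_left, polar_add_left,
        polar_smul_left]
    · have hPR : ∀ x, InS x → polar Q R x = 0 ∧ polar Q P x = 0 := fun x hx => ⟨hsing _ _ hR hx, hsing _ _ hP hx⟩
      have dP := hS P hP
      have dR := hS R hR
      have hge : (g : Matrix ι ι F) *ᵥ e = e := by rw [hg, (hPR e se).1, (hPR e se).2]; simp
      have hgv : (g : Matrix ι ι F) *ᵥ v =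
          (polar Q R v * polar Q P u - polar Q P v * polar Q R u) • e + (1 : F) • v +
          (polar Q R v * polar Q P gC - polar Q P v * polar Q R gC) • l := by
        rw [hg]
        conv_lhs => arg 1; arg 2; arg 2; rw [dP]
        conv_lhs => arg 2; arg 2; rw [dR]
        module
      refine ⟨⟨S.le hgH, by rw [hg, (hPR l sl).1, (hPR l sl).2]; simp, fun x p1 p2 _ _ p5 => ?_,
        ⟨1, 0, 0, by rw [hge]; module⟩, ⟨_, _, _, hgv⟩,
        ⟨1, 0, 0, by rw [hg, (hPR e' se').1, (hPR e' se').2]; module⟩,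
        ⟨polar Q R u * polar Q P v - polar Q P u * polar Q R v, 1,
          polar Q R u * polar Q P gC - polar Q P u * polar Q R gC, ?_⟩⟩, ?_⟩
      · have hp : ∀ z, InS z → polar Q z x = 0 := fun z hz => by
          rw [hS z hz]
          simp [polar_add_left, polar_smul_left, polar_comm Q e x, polar_comm Q e' x, polar_comm Q l x, p1, p2, p5]
        rw [hg, hp R hR, hp P hP]; simp
      · rw [hg]
        conv_lhs => arg 1; arg 2; arg 2; rw [dP]
        conv_lhs => arg 2; arg 2; rw [dR]
        module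
      · simp [M₂, det_fin_two_of, hge, hgv, ψ, φ, polar_add_left, polar_smul_left, eu, vu, lu, ee', ve', le']
  let fm : J →* Matrix (Fin 2) (Fin 2) F :=
    { toFun := fun g => M₂ g
      map_one' := hM1
      map_mul' := fun g g' => hM2 _ _ (hJG g.2).1 (hJG g'.2).1 }
  have hfm : ∀ g : J, fm g = M₂ g := fun g => rfl
  -- upper triangular elements act trivially on the plane
  have upper : ∀ g : J, fm g 1 0 = 0 → fm g 0 0 = 1 ∧
      ∀ x, InS x → ((g : GL ι F) : Matrix ι ι F) *ᵥ x = x := by
    intro g h10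
    obtain ⟨⟨hO, hgl, -, ⟨μ, t1, κ1, g1⟩, ⟨a2, b2, κ2, g2⟩, ⟨μ', t3, κ3, g3⟩, -⟩, hdet⟩ := hJG g.2
    set k := (g : GL ι F) with hk
    have ht1 : t1 = 0 := by
      rw [hfm, ← hk] at h10
      simpa [M₂, g1, (hψφ _ _ _).2] using h10
    subst ht1
    rw [zero_smul, add_zero] at g1
    have hdet' : μ * b2 = 1 := by
      simpa [M₂, det_fin_two_of, g1, g2, (hψφ _ _ _).1, (hψφ _ _ _).2, ψ, φ, polar_add_left, polar_smul_left, eu, lu,
        ee', le', vu, ve'] using hdet
    have hμ0 : μ ≠ 0 := left_ne_zero_of_mul_eq_one hdet'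
    have ht3 : t3 = 0 := by
      have h1 := (polar_omega hO).2 e' e
      rw [g1, g3, e'e] at h1
      simp [polar_add_left, polar_add_right, polar_smul_left, polar_smul_right, e'e, ue, le, el, e'l, ul, ll] at h1
      exact h1.resolve_left hμ0
    subst ht3
    rw [zero_smul, add_zero] at g3
    have hμ' : μ' = μ := by
      have h1 := (polar_omega hO).2 e' v
      rw [g2, g3, e'v] at h1
      simp [polar_add_left, polar_add_right, polar_smul_left, polar_smul_right, e'e, e'v, e'l, le, lv, ll] at h1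
      exact mul_right_cancel₀ (right_ne_zero_of_mul_eq_one hdet') (by linear_combination h1 - hdet')
    rw [hμ'] at g3
    have hmap : ∀ x, InS x → InS ((k : Matrix ι ι F) *ᵥ x) := by
      intro x hx
      rw [hS x hx, mulVec_add, mulVec_add, mulVec_smul, mulVec_smul, mulVec_smul, g1, g3, hgl]
      have h1 := hcomb 1 1 _ _ (hcomb (polar Q x u) (polar Q x v) _ _ (hcomb μ κ1 e l se sl)
        (hcomb μ κ3 e' l se' sl)) (hcomb (polar Q x gC) 0 l l sl sl)
      simpa using h1
    let E : Fin 3 → ι → F₀ := ![a, b, c]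
    let W : Fin 3 → ι → F₀ := ![wA, wB, wC]
    have hInS : ∀ j, InS (cv (E j)) := fun j => by fin_cases j; exacts [sA, sB, sC]
    have hEq : ∀ j, Q₀ (E j) = 0 := fun j => by fin_cases j; exacts [qa, qb, qc]
    have hEp : ∀ i j, polar Q₀ (E i) (E j) = 0 := fun i j => Subtype.ext (by
      rw [← polar_cv S]; exact hsing _ _ (hInS i) (hInS j))
    let K : Matrix (Fin 3) (Fin 3) F := fun i j => polar Q ((k : Matrix ι ι F) *ᵥ cv (E j)) (cv (W i))
    have hcoord : ∀ x : ι → F, InS x → ∀ i,
        polar Q ((k : Matrix ι ι F) *ᵥ x) (cv (W i)) = (K *ᵥ ![polar Q x gA, polar Q x gB, polar Q x gC]) i := by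
      intro x hx i
      conv_lhs => rw [show x = _ from hx]
      simp only [mulVec_add, mulVec_smul, polar_add_left, polar_smul_left, smul_eq_mul, Matrix.mulVec, dotProduct,
        Fin.sum_univ_three]
      simp [K, E, A, B, Cc]
      ring
    have hm : ∀ p q i j, K p i * K q j - K q i * K p j ∈ F₀ := by
      intro p q i j
      have hroot := rootIn_map (hJH g.2) hO (root_rat S (hEq i) (hEq j) (hEp i j))
      have si := hmap _ (hInS i)
      have sj := hmap _ (hInS j)
      obtain ⟨s, -, es⟩ := exists_isRoot S.nd (five_le S) (hQS _ si) (hQS _ sj) (hsing _ _ si sj)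
      have hR := fix_isR T (hroot s es) qa ha0 (by rw [es, hsing _ _ sj sA, hsing _ _ si sA]; simp)
      have h1 := rt_polar S (rt_sub (hR _ (rt_cv (W q))) (rt_cv (W q))) (rt_cv (W p))
      rw [es] at h1
      simp only [polar_add_left, polar_sub_left, polar_smul_left, smul_eq_mul] at h1
      convert h1 using 1
      simp only [K, hk]
      ring
    have hadj : ∀ i j, K.adjugate i j ∈ F₀ := by
      intro i j
      rw [adjugate_fin_succ_eq_det_submatrix, det_fin_two]
      refine mul_mem (pow_mem (neg_mem (one_mem _)) _) ?_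
      have := hm (j.succAbove 0) (j.succAbove 1) (i.succAbove 0) (i.succAbove 1)
      convert this using 1
      simp only [submatrix_apply]
      ring
    have hinj : ∀ x : Fin 3 → F, K *ᵥ x = 0 → x = 0 := by
      intro x hx
      set z := x 0 • A + x 1 • B + x 2 • Cc with hz
      have zA : polar Q z gA = x 0 := by simp [hz, polar_add_left, polar_smul_left, AgA, BgA, CgA]
      have zB : polar Q z gB = x 1 := by simp [hz, polar_add_left, polar_smul_left, AgB, BgB, CgB]
      have zC : polar Q z gC = x 2 := by simp [hz, polar_add_left, polar_smul_left, AgC, BgC, CgC]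
      have sz : InS z := by show z = _; rw [zA, zB, zC]
      have hvec : ![polar Q z gA, polar Q z gB, polar Q z gC] = x := by
        rw [zA, zB, zC]; funext i; fin_cases i <;> rfl
      have h0 : ∀ i, polar Q ((k : Matrix ι ι F) *ᵥ z) (cv (W i)) = 0 := fun i => by
        rw [hcoord z sz i, hvec, hx, Pi.zero_apply]
      have hk0 : (k : Matrix ι ι F) *ᵥ z = 0 := by
        rw [show (k : Matrix ι ι F) *ᵥ z = _ from hmap z sz,
          show polar Q ((k : Matrix ι ι F) *ᵥ z) gA = 0 from h0 0,
          show polar Q ((k : Matrix ι ι F) *ᵥ z) gB = 0 from h0 1,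
          show polar Q ((k : Matrix ι ι F) *ᵥ z) gC = 0 from h0 2]
        simp
      have hz0 : z = 0 := by rw [← inv_mulVec_cancel k z, hk0, mulVec_zero]
      rw [hz0, polar_zero_left] at zA zB zC
      funext i; fin_cases i <;> simp [← zA, ← zB, ← zC]
    have hDne : K.det ≠ 0 := fun h0 => by
      obtain ⟨x, hx0, hx⟩ := Matrix.exists_mulVec_eq_zero_iff.2 h0
      exact hx0 (hinj x hx)
    have hKl : K *ᵥ ![l₁, l₂, 1] = ![l₁, l₂, 1] := funext fun i => by
      have h1 := hcoord l sl i
      rw [hgl, lgC] at h1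
      rw [← h1]
      fin_cases i
      · rfl
      · rfl
      · exact lgC
    have hlne : ![l₁, l₂, (1 : F)] ≠ 0 := fun h => one_ne_zero (congrFun h 2)
    have hD : K.det ∈ F₀ := by
      refine eigen_rat hr hr4 hcard hadj hlne ?_
      conv_lhs => rw [← hKl]
      rw [mulVec_mulVec, adjugate_mul, smul_mulVec, one_mulVec]
    have hKrat : ∀ i j, K i j ∈ F₀ := by
      intro i j
      let M₀ : Matrix (Fin 3) (Fin 3) F₀ := fun i j => ⟨K.adjugate i j, hadj i j⟩
      have h1 : K.adjugate.adjugate i j ∈ F₀ := by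
        rw [show K.adjugate = M₀.map F₀.subtype from rfl, ← RingHom.mapMatrix_apply, ← RingHom.map_adjugate,
          RingHom.mapMatrix_apply, Matrix.map_apply]
        exact SetLike.coe_mem _
      rw [adjugate_adjugate _ (by simp), Fintype.card_fin, Matrix.smul_apply, smul_eq_mul] at h1
      have h2 := div_mem h1 (pow_mem hD 1)
      simpa [hDne] using h2
    have hE : ∀ j, Rt F₀ ((k : Matrix ι ι F) *ᵥ cv (E j)) := fun j => by
      rw [show (k : Matrix ι ι F) *ᵥ cv (E j) = _ from hmap _ (hInS j)]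
      exact rt_add (rt_add (rt_smul (hKrat 0 j) (rt_cv a)) (rt_smul (hKrat 1 j) (rt_cv b)))
        (rt_smul (hKrat 2 j) (rt_cv c))
    -- the eigenvalue
    have hμF : μ ∈ F₀ := by
      by_cases hμ1 : μ = 1
      · rw [hμ1]; exact one_mem _
      have hμ1' : μ - 1 ≠ 0 := sub_ne_zero.2 hμ1
      set z := e + (κ1 / (μ - 1)) • l with hz
      have sz : InS z := by simpa [hz] using hcomb 1 (κ1 / (μ - 1)) e l se sl
      have hkz : (k : Matrix ι ι F) *ᵥ z = μ • z := by
        rw [hz, mulVec_add, mulVec_smul, g1, hgl]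
        match_scalars <;> field_simp <;> ring
      refine eigen_rat hr hr4 hcard hKrat (v := ![polar Q z gA, polar Q z gB, polar Q z gC]) ?_ (funext fun i => ?_)
      · intro h0
        have h1 : z = 0 := by
          rw [show z = _ from sz, show polar Q z gA = 0 from congrFun h0 0,
            show polar Q z gB = 0 from congrFun h0 1, show polar Q z gC = 0 from congrFun h0 2]
          simp
        have h2 : polar Q z u = 1 := by simp [hz, polar_add_left, polar_smul_left, eu, lu]
        rw [h1, polar_zero_left] at h2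
        exact zero_ne_one h2
      · rw [← hcoord z sz i, hkz, polar_smul_left, Pi.smul_apply]
        fin_cases i <;> rfl
    have hfix : ∀ x, InS x → Rt F₀ x → Rt F₀ ((k : Matrix ι ι F) *ᵥ x) → (k : Matrix ι ι F) *ᵥ x = μ • x := by
      intro x hx hxR hkR
      have hd : (k : Matrix ι ι F) *ᵥ x - μ • x =
          (polar Q x u * κ1 + polar Q x v * κ3 + polar Q x gC * (1 - μ)) • l := by
        conv_lhs => rw [hS x hx, mulVec_add, mulVec_add, mulVec_smul, mulVec_smul, mulVec_smul, g1, g3, hgl]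
        module
      have h0 := hlrat _ (by rw [← hd]; exact rt_sub hkR (rt_smul hμF hxR))
      rw [h0, zero_smul, sub_eq_zero] at hd
      exact hd
    have hA' := hfix A sA (rt_cv a) (hE 0)
    have hB' := hfix B sB (rt_cv b) (hE 1)
    have hC' := hfix Cc sC (rt_cv c) (hE 2)
    have hall : ∀ x, InS x → (k : Matrix ι ι F) *ᵥ x = μ • x := fun x hx => by
      rw [show x = _ from hx, mulVec_add, mulVec_add, mulVec_smul, mulVec_smul, mulVec_smul, hA', hB', hC']
      module
    have hμ1 : μ = 1 := by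
      have h1 := hall l sl
      rw [hgl] at h1
      have h2 := congrArg (fun x => polar Q x gC) h1
      simp only [polar_smul_left, lgC, smul_eq_mul, mul_one] at h2
      exact h2.symm
    refine ⟨?_, fun x hx => by rw [hall x hx, hμ1, one_smul]⟩
    rw [hfm]
    simp [M₂, ← hk, g1, ψ, polar_add_left, polar_smul_left, eu, lu, hμ1]
  have hyJ : y ∈ J := Subgroup.subset_closure (Set.mem_insert _ _)
  have hinjf : Function.Injective fm := by
    refine (injective_iff_map_eq_one fm).2 fun g hg => ?_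
    obtain ⟨-, hfixS⟩ := upper g (by rw [hg]; simp)
    obtain ⟨⟨hO, hgl, hgK, -, ⟨a2, b2, κ, g2⟩, -, ⟨a4, b4, κ', g4⟩⟩, -⟩ := hJG g.2
    set k := (g : GL ι F) with hk
    have hMk : M₂ k = 1 := by rw [hk, ← hfm, hg]
    have ha2 : a2 = 0 := by simpa [M₂, g2, (hψφ _ _ _).1] using congrFun (congrFun hMk 0) 1
    have hb2 : b2 = 1 := by simpa [M₂, g2, (hψφ _ _ _).2] using congrFun (congrFun hMk 1) 1
    subst ha2 hb2
    rw [zero_smul, one_smul, zero_add] at g2
    have hke := hfixS e se
    have hb4 : b4 = 1 := by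
      have h1 := (polar_omega hO).2 u e
      rw [g4, hke, ue] at h1
      simpa [polar_add_left, polar_smul_left, ue, e'e, le] using h1
    have ha4 : a4 = 0 := by
      have h1 := (polar_omega hO).2 u v
      rw [g4, g2, huv] at h1
      simpa [polar_add_left, polar_add_right, polar_smul_left, polar_smul_right, e'v, huv, e'l, ul, lv, ll] using h1
    subst ha4 hb4
    rw [zero_smul, one_smul, zero_add] at g4
    -- the commutator with `y`
    have hzJ : k * y * k⁻¹ * y⁻¹ ∈ J := mul_mem (mul_mem (mul_mem g.2 hyJ) (inv_mem g.2)) (inv_mem hyJ)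
    have hz1 : fm ⟨_, hzJ⟩ = 1 := by
      have h1 : (⟨_, hzJ⟩ : J) = g * ⟨y, hyJ⟩ * g⁻¹ * (⟨y, hyJ⟩ : J)⁻¹ := Subtype.ext rfl
      rw [h1, map_mul, map_mul, map_mul, hg, one_mul]
      have h2 : fm g⁻¹ = 1 := by
        have := map_mul fm g g⁻¹
        rw [mul_inv_cancel, map_one, hg, one_mul] at this
        exact this.symm
      rw [h2, mul_one, ← map_mul, mul_inv_cancel, map_one]
    obtain ⟨-, hfixz⟩ := upper ⟨_, hzJ⟩ (by rw [hz1]; simp)
    have hκ : κ = 0 ∧ κ' = 0 := by
      have e1 := isRoot_conj hO ey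
      rw [g4, g2] at e1
      have hze := hfixz e se
      have hze' := hfixz e' se'
      change ((k * y * k⁻¹ * y⁻¹ : GL ι F) : Matrix ι ι F) *ᵥ e = e at hze
      change ((k * y * k⁻¹ * y⁻¹ : GL ι F) : Matrix ι ι F) *ᵥ e' = e' at hze'
      rw [Units.val_mul, ← mulVec_mulVec, root_formula_inv hu hv huv ey, e1] at hze hze'
      constructor
      · have h2 := congrArg (fun x => polar Q x gC) hze
        simp [polar_add_left, polar_sub_left, polar_add_right, polar_sub_right, polar_smul_left, polar_smul_right,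
          ve, ue, vv, huv, vu, uu, lu, lv, le, egC, lgC] at h2
        linear_combination h2
      · have h2 := congrArg (fun x => polar Q x gC) hze'
        simp [polar_add_left, polar_sub_left, polar_add_right, polar_sub_right, polar_smul_left, polar_smul_right,
          ve', ue', vv, huv, vu, uu, lu, lv, le', e'gC, lgC] at h2
        linear_combination h2
    rw [hκ.1, zero_smul, add_zero] at g2
    rw [hκ.2, zero_smul, add_zero] at g4
    have hhyp : ∀ x, polar Q x l = 0 → (k : Matrix ι ι F) *ᵥ x = x := by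
      intro x hx
      set z := x - polar Q x u • e - polar Q x v • e' - polar Q x e • u - polar Q x e' • v with hz
      have h0 := hgK z
        (by simp [hz, polar_sub_left, polar_smul_left, ee, e'e, ue, ve])
        (by simp [hz, polar_sub_left, polar_smul_left, ee', e'e', ue', ve'])
        (by simp [hz, polar_sub_left, polar_smul_left, eu, e'u, uu, vu])
        (by simp [hz, polar_sub_left, polar_smul_left, ev, e'v, huv, vv])
        (by simp [hz, polar_sub_left, polar_smul_left, el, e'l, ul, vl, hx])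
      rw [hz] at h0
      simp only [mulVec_sub, mulVec_smul, hke, hfixS e' se', g2, g4, sub_left_inj] at h0
      exact h0
    have hR := fix_isR T (hJH g.2) qa ha0 (hfixS A sA)
    refine Subtype.ext (GeoFull.gl_ext fun x => ?_)
    rw [Subgroup.coe_one, Units.val_one, one_mulVec, ← hk]
    set d := (k : Matrix ι ι F) *ᵥ gC - gC with hd
    have hdR : Rt F₀ d := rt_sub (hR _ (rt_cv wC)) (rt_cv wC)
    have gCl : polar Q gC l = 1 := by rw [polar_comm, lgC]
    have hdperp : ∀ z, polar Q z l = 0 → polar Q d z = 0 := fun z hz => by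
      rw [hd, polar_sub_left]
      nth_rw 1 [← hhyp z hz]
      rw [(polar_omega hO).2, sub_self]
    have hdl : d = polar Q d gC • l := sub_eq_zero.1 (eq_zero_of_polar S fun w => by
      have h1 := hdperp (cv w - polar Q (cv w) l • gC) (by
        rw [polar_sub_left, polar_smul_left, gCl, smul_eq_mul, mul_one, sub_self])
      rw [polar_sub_right, polar_smul_right, smul_eq_mul] at h1
      rw [polar_sub_left, polar_smul_left, polar_comm Q l, smul_eq_mul]
      linear_combination h1)
    have hd0 : d = 0 := by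
      rw [hdl, hlrat (polar Q d gC) (by rw [← hdl]; exact hdR), zero_smul]
    have h1 := hhyp (x - polar Q x l • gC) (by
      rw [polar_sub_left, polar_smul_left, gCl, smul_eq_mul, mul_one, sub_self])
    rw [hd, sub_eq_zero] at hd0
    rw [mulVec_sub, mulVec_smul, hd0, sub_left_inj] at h1
    exact h1
  obtain ⟨p, hp⟩ := CharP.exists F
  haveI : Fact p.Prime := ⟨CharP.char_is_prime F p⟩
  let cst : ZMod p → F := fun s => ZMod.castHom (dvd_refl p) F s
  have hcst : ∀ s, cst s ∈ F₀ := fun s => by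
    simp only [cst]
    rw [ZMod.castHom_apply, ZMod.cast_eq_val]
    exact natCast_mem F₀ _
  have hcard' : p ^ 2 ≤ Nat.card {g : J // fm g 1 0 = 0 ∧ fm g 0 0 = 1} := by
    obtain ⟨X, qX, pXc, sX, lX, hlX, hX⟩ : ∃ X : ι → F₀, Q₀ X = 0 ∧ polar Q₀ X c = 0 ∧ InS (cv X) ∧
        ∃ lX : F, lX ∉ F₀ ∧
          polar Q Cc v * polar Q (cv X) u - polar Q (cv X) v * polar Q Cc u = lX * D := by
      have h1 : polar Q l u = l₁ * polar Q A u + l₂ * polar Q B u + polar Q Cc u := by
        rw [hl12]; simp [polar_add_left, polar_smul_left]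
      have h2 : polar Q l v = l₁ * polar Q A v + l₂ * polar Q B v + polar Q Cc v := by
        rw [hl12]; simp [polar_add_left, polar_smul_left]
      rw [lu] at h1
      rw [lv] at h2
      by_cases hl1 : l₁ ∈ F₀
      · refine ⟨a, qa, by rw [polar_comm, ca], sA, -l₂, fun h => ?_, ?_⟩
        · refine one_ne_zero (hlrat 1 ?_)
          rw [one_smul, hl12]
          refine rt_add (rt_add (rt_smul hl1 (rt_cv a)) (rt_smul ?_ (rt_cv b))) (rt_cv c)
          simpa using neg_mem h
        · linear_combination (polar Q A v) * h1 - (polar Q A u) * h2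
      · refine ⟨b, qb, by rw [polar_comm, cb], sB, l₁, hl1, ?_⟩
        linear_combination (polar Q B v) * h1 - (polar Q B u) * h2
    have sSmul : ∀ (s : F) x, InS x → InS (s • x) := fun s x hx => by simpa using hcomb s 0 x x hx hx
    have hex : ∀ s, ∃ g₁ g₂ : GL ι F, g₁ ∈ J ∧ g₂ ∈ J ∧ IsRoot Q (cst s • A) B g₁ ∧
        IsRoot Q (cst s • cv X) Cc g₂ := by
      intro s
      obtain ⟨g₁, -, e₁⟩ := exists_isRoot S.nd (five_le S) (hQS _ (sSmul (cst s) A sA)) (q_zero S qb)
        (hsing _ _ (sSmul _ _ sA) sB)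
      obtain ⟨g₂, -, e₂⟩ := exists_isRoot S.nd (five_le S) (hQS _ (sSmul (cst s) _ sX)) (q_zero S qc)
        (hsing _ _ (sSmul _ _ sX) sC)
      have m₁ : g₁ ∈ H := by
        have := root_rat S (u := (⟨cst s, hcst s⟩ : F₀) • a) (v := b)
          (by rw [QuadraticMap.map_smul, qa, smul_zero]) qb (by rw [polar_smul_left, pab, smul_zero])
        exact this g₁ (by rwa [cv_smul])
      have m₂ : g₂ ∈ H := by
        have := root_rat S (u := (⟨cst s, hcst s⟩ : F₀) • X) (v := c)
          (by rw [QuadraticMap.map_smul, qX, smul_zero]) qc (by rw [polar_smul_left, pXc, smul_zero])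
        exact this g₂ (by rwa [cv_smul])
      exact ⟨g₁, g₂, Subgroup.subset_closure (Or.inr ⟨m₁, _, _, sSmul _ _ sA, sB, e₁⟩),
        Subgroup.subset_closure (Or.inr ⟨m₂, _, _, sSmul _ _ sX, sC, e₂⟩), e₁, e₂⟩
    choose t₁ t₂ ht₁ ht₂ et₁ et₂ using hex
    let t : ZMod p × ZMod p → J := fun z => ⟨t₁ z.1 * t₂ z.2, mul_mem (ht₁ _) (ht₂ _)⟩
    have hval : ∀ z, fm (t z) = !![1, (cst z.1 + cst z.2 * lX) * D; 0, 1] := by
      intro z
      have e0 : fm (t z) = M₂ (t₁ z.1) * M₂ (t₂ z.2) := hM2 _ _ (hJG (ht₁ _)).1 (hJG (ht₂ _)).1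
      have hM : ∀ (g : GL ι F) (P R : ι → F), InS P → InS R → IsRoot Q P R g →
          M₂ g = !![1, polar Q R v * polar Q P u - polar Q P v * polar Q R u; 0, 1] := by
        intro g P R hP hR hg
        ext i j
        fin_cases i <;> fin_cases j <;>
          simp [M₂, ψ, φ, hg _, polar_sub_left, polar_add_left, polar_smul_left, hsing _ _ hR se, hsing _ _ hP se,
            eu, ee', vu, ve', hsing _ _ hP se', hsing _ _ hR se']
      rw [e0, hM _ _ _ (sSmul _ _ sA) sB (et₁ _), hM _ _ _ (sSmul _ _ sX) sC (et₂ _)]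
      ext i j
      fin_cases i <;> fin_cases j <;> simp [Matrix.mul_apply, Fin.sum_univ_two, polar_smul_left]
      linear_combination (cst z.1) * (-hDe) + (cst z.2) * hX
    have hprop : ∀ z, fm (t z) 1 0 = 0 ∧ fm (t z) 0 0 = 1 := fun z => by rw [hval]; simp
    refine le_trans ?_ (Nat.card_le_card_of_injective
      (fun z => (⟨t z, hprop z⟩ : {g : J // fm g 1 0 = 0 ∧ fm g 0 0 = 1})) fun z z' hzz => ?_)
    · rw [Nat.card_prod, Nat.card_zmod, pow_two]
    · have e1 := congrArg (fun g : {g : J // fm g 1 0 = 0 ∧ fm g 0 0 = 1} => fm g.1 0 1) hzz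
      simp only [hval] at e1
      have e2 : cst z.1 + cst z.2 * lX = cst z'.1 + cst z'.2 * lX := mul_right_cancel₀ hD (by simpa using e1)
      have hinj : Function.Injective cst := fun x y e => (ZMod.castHom (dvd_refl p) F).injective e
      by_cases h2 : cst z.2 = cst z'.2
      · rw [h2, add_left_inj] at e2
        exact Prod.ext (hinj e2) (hinj h2)
      · refine absurd ?_ hlX
        rw [show lX = (cst z'.1 - cst z.1) / (cst z.2 - cst z'.2) by
          rw [eq_div_iff (sub_ne_zero.2 h2)]; linear_combination e2]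
        exact div_mem (sub_mem (hcst _) (hcst _)) (sub_mem (hcst _) (hcst _))
  have hylow : ∃ z, fm z 1 0 ≠ 0 := by
    refine ⟨⟨y, hyJ⟩, ?_⟩
    simp [hfm, M₂, φ, ey _, ve, ue, polar_sub_left, polar_add_left, polar_smul_left, ee', ue', ve']
  obtain ⟨d, hd10, hd00⟩ := CfsgLib.SubMax.exists_torus fm hinjf (fun g => (hJG g.2).2) hcard' hylow
  exact hd00 (upper d hd10).1

omit hr hcard in
/-- The minors of a rational root are rational. -/
theorem minor_of_isR {u v : ι → F} {g : GL ι F} (hR : IsR F₀ g) (hg : IsRoot Q u v g) (p w : ι → F₀) :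
    polar Q v (cv p) * polar Q u (cv w) - polar Q u (cv p) * polar Q v (cv w) ∈ F₀ := by
  have h1 := rt_polar T.toSetting (rt_sub (hR _ (rt_cv p)) (rt_cv p)) (rt_cv w)
  rw [hg, polar_sub_left, polar_sub_left, polar_add_left, polar_smul_left, polar_smul_left, smul_eq_mul,
    smul_eq_mul] at h1
  convert h1 using 1
  ring

/-- The Plücker coordinates of every root element of `H` are rational. -/
theorem minor_rat {u v : ι → F} (hu : Q u = 0) (hv : Q v = 0) (huv : polar Q u v = 0)
    (hind : ∀ a b : F, a • u + b • v = 0 → a = 0 ∧ b = 0) (hy : RootIn Q H u v) (p w : ι → F₀) :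
    polar Q v (cv p) * polar Q u (cv w) - polar Q u (cv p) * polar Q v (cv w) ∈ F₀ := by
  have S := T.toSetting
  by_contra hne
  refine no_generic T hr hcard hu hv huv hind hy fun z hz h1 h2 => ?_
  by_contra hz0
  obtain ⟨g, -, eg⟩ := exists_isRoot S.nd (five_le S) hu hv huv
  have hR := fix_isR T (hy g eg) hz hz0 (by rw [eg, polar_comm Q v, h2, polar_comm Q u, h1]; simp)
  exact hne (minor_of_isR T hR eg p w)

end CfsgLib.SubMaxO
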