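import Mathlib
import Cfsg.Agent.SubMaxO.Rigid
import Cfsg.Agent.Forms.GeoBridge

/-!
Subfield subgroups of the groups `Ω` are maximal.
-/

set_option autoImplicit false

open QuadraticMap

namespace CfsgLib.SubMaxO

open Matrix CfsgLib.GeoOrth CfsgLib.Forms CfsgLib.GeoFull

variable {ι : Type} [Fintype ι] [DecidableEq ι] {F : Type*} [Field F] [Fintype F] {F₀ : Subfield F} {r : ℕ}
variable {Q : QuadraticForm F (ι → F)} {Q₀ : QuadraticForm F₀ (ι → F₀)} {H : Subgroup (GL ι F)}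

/-- Images of an independent pair are independent. -/
theorem indep_map (S : Setting Q Q₀ H) (g : GL ι F) {a b : ι → F₀} (ha0 : a ≠ 0)
    (hba : b ∉ Submodule.span F₀ {a}) (s t : F)
    (h : s • ((g : Matrix ι ι F) *ᵥ cv a) + t • ((g : Matrix ι ι F) *ᵥ cv b) = 0) : s = 0 ∧ t = 0 := by
  obtain ⟨w, -, wa, -, bw⟩ := exists_dual S (y := b) (x := a) (z := a) (by rwa [Set.pair_eq_singleton])
  have h1 : s • cv a + t • cv b = 0 := by
    rw [← mulVec_smul, ← mulVec_smul, ← mulVec_add] at h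
    rw [← inv_mulVec_cancel g (s • cv a + t • cv b), h, mulVec_zero]
  have h2 := congrArg (fun x => polar Q x (cv w)) h1
  simp only [polar_add_left, polar_smul_left, polar_zero_left, smul_eq_mul] at h2
  rw [p_zero S (show polar Q₀ a w = 0 by rw [polar_comm, wa]), polar_cv S, bw] at h2
  have ht : t = 0 := by simpa using h2
  subst ht
  rw [zero_smul, add_zero, smul_eq_zero] at h1
  exact ⟨h1.resolve_right fun e => ha0 (cv_injective (by rw [e, cv_zero])), rfl⟩

variable (T : Tight Q Q₀ H) (hr : r.Prime) (hcard : Fintype.card F = Nat.card F₀ ^ r)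
include T hr hcard

theorem minor_image {g : GL ι F} (hg : g ∈ H) {a b : ι → F₀} (qa : Q₀ a = 0) (qb : Q₀ b = 0)
    (pab : polar Q₀ a b = 0) (ha0 : a ≠ 0) (hba : b ∉ Submodule.span F₀ {a}) (p w : ι → F₀) :
    polar Q ((g : Matrix ι ι F) *ᵥ cv b) (cv p) * polar Q ((g : Matrix ι ι F) *ᵥ cv a) (cv w) -
      polar Q ((g : Matrix ι ι F) *ᵥ cv a) (cv p) * polar Q ((g : Matrix ι ι F) *ᵥ cv b) (cv w) ∈ F₀ := by
  have S := T.toSetting
  have hgO := S.le hg
  exact minor_rat T hr hcard (by rw [(polar_omega hgO).1, q_zero S qa]) (by rw [(polar_omega hgO).1, q_zero S qb])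
    (by rw [(polar_omega hgO).2, p_zero S pab]) (indep_map S g ha0 hba)
    (rootIn_map hg hgO (root_rat S qa qb pab)) p w

omit hr hcard in
theorem exists_minor_ne (g : GL ι F) {a b : ι → F₀} (ha0 : a ≠ 0) (hba : b ∉ Submodule.span F₀ {a}) :
    ∃ p w : ι → F₀,
      polar Q ((g : Matrix ι ι F) *ᵥ cv b) (cv p) * polar Q ((g : Matrix ι ι F) *ᵥ cv a) (cv w) -
        polar Q ((g : Matrix ι ι F) *ᵥ cv a) (cv p) * polar Q ((g : Matrix ι ι F) *ᵥ cv b) (cv w) ≠ 0 := by
  have S := T.toSetting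
  by_contra hall
  push Not at hall
  have h0 : (g : Matrix ι ι F) *ᵥ cv a = 0 := eq_zero_of_polar S fun p => by
    have h1 : polar Q ((g : Matrix ι ι F) *ᵥ cv b) (cv p) • ((g : Matrix ι ι F) *ᵥ cv a) +
        (-polar Q ((g : Matrix ι ι F) *ᵥ cv a) (cv p)) • ((g : Matrix ι ι F) *ᵥ cv b) = 0 :=
      eq_zero_of_polar S fun w => by
        rw [polar_add_left, polar_smul_left, polar_smul_left, smul_eq_mul, smul_eq_mul]
        linear_combination hall p w
    simpa using (indep_map S g ha0 hba _ _ h1).2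
  exact ha0 (cv_injective (by rw [← inv_mulVec_cancel g (cv a), h0, mulVec_zero, cv_zero]))

/-- Each rational singular line has a rational image. -/
theorem exists_kappa {g : GL ι F} (hg : g ∈ H) {a : ι → F₀} (qa : Q₀ a = 0) (ha0 : a ≠ 0) :
    ∃ κ : F, κ ≠ 0 ∧ Rt F₀ (κ • ((g : Matrix ι ι F) *ᵥ cv a)) := by
  have S := T.toSetting
  obtain ⟨b, qb, ba, -, -, -, bU⟩ := exists_out S a 0 0 0
  obtain ⟨c, qc, ca, cb, -, -, cU⟩ := exists_out S a b 0 0
  have hba := not_mem_single (mem4 (a := a) (b := (0 : ι → F₀)) (c := 0) (d := 0)).1 bU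
  obtain ⟨ma, mb, -, -⟩ := mem4 (a := a) (b := b) (c := (0 : ι → F₀)) (d := 0)
  have hca := not_mem_single ma cU
  have pab : polar Q₀ a b = 0 := by rw [polar_comm, ba]
  obtain ⟨p₀, p₁, hm⟩ := exists_minor_ne T g ha0 hba
  set Xa := (g : Matrix ι ι F) *ᵥ cv a with hXa
  set Xb := (g : Matrix ι ι F) *ᵥ cv b with hXb
  set Xc := (g : Matrix ι ι F) *ᵥ cv c with hXc
  set m := polar Q Xb (cv p₀) * polar Q Xa (cv p₁) - polar Q Xa (cv p₀) * polar Q Xb (cv p₁) with hmdef
  have hmr := minor_image T hr hcard hg qa qb pab ha0 hba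
  obtain ⟨p', hpa, hpb, hpc⟩ : ∃ p' : ι → F₀, polar Q Xa (cv p') = 0 ∧ polar Q Xb (cv p') = 0 ∧
      polar Q Xc (cv p') ≠ 0 := by
    by_contra hall
    push Not at hall
    set s := (polar Q Xb (cv p₀) * polar Q Xc (cv p₁) - polar Q Xc (cv p₀) * polar Q Xb (cv p₁)) / m with hs
    set t := (polar Q Xc (cv p₀) * polar Q Xa (cv p₁) - polar Q Xa (cv p₀) * polar Q Xc (cv p₁)) / m with ht
    have h0 : Xc + (-s) • Xa + (-t) • Xb = 0 := eq_zero_of_polar S fun p => by
      obtain ⟨α, hα⟩ : ∃ α : F₀, (α : F) =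
          (polar Q Xb (cv p) * polar Q Xa (cv p₁) - polar Q Xa (cv p) * polar Q Xb (cv p₁)) / m :=
        ⟨⟨_, div_mem (hmr p p₁) (hmr p₀ p₁)⟩, rfl⟩
      obtain ⟨β, hβ⟩ : ∃ β : F₀, (β : F) =
          (polar Q Xb (cv p₀) * polar Q Xa (cv p) - polar Q Xa (cv p₀) * polar Q Xb (cv p)) / m :=
        ⟨⟨_, div_mem (hmr p₀ p) (hmr p₀ p₁)⟩, rfl⟩
      have hp : cv (p - α • p₀ - β • p₁) = cv p + (-(α : F)) • cv p₀ + (-(β : F)) • cv p₁ := by
        funext k; simp [cv]; ring
      have e : ∀ X : ι → F, polar Q X (cv (p - α • p₀ - β • p₁)) =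
          polar Q X (cv p) - (α : F) * polar Q X (cv p₀) - (β : F) * polar Q X (cv p₁) := fun X => by
        rw [hp, polar_add_right, polar_add_right, polar_smul_right, polar_smul_right, smul_eq_mul, smul_eq_mul]
        ring
      have hA : polar Q Xa (cv (p - α • p₀ - β • p₁)) = 0 := by
        rw [e, hα, hβ]; field_simp; rw [hmdef]; ring
      have hB : polar Q Xb (cv (p - α • p₀ - β • p₁)) = 0 := by
        rw [e, hα, hβ]; field_simp; rw [hmdef]; ring
      have hC := hall _ hA hB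
      rw [e, hα, hβ] at hC
      rw [polar_add_left, polar_add_left, polar_smul_left, polar_smul_left, smul_eq_mul, smul_eq_mul, hs, ht]
      field_simp at hC ⊢
      linear_combination hC
    obtain ⟨w, -, wa, wb, cw⟩ := exists_dual S (y := c) (x := a) (z := b) (fun h => cU (pair_le ma mb h))
    have h1 : cv c + (-s) • cv a + (-t) • cv b = 0 := by
      rw [← inv_mulVec_cancel g (cv c + (-s) • cv a + (-t) • cv b), mulVec_add (g : Matrix ι ι F),
        mulVec_add (g : Matrix ι ι F), mulVec_smul (g : Matrix ι ι F), mulVec_smul (g : Matrix ι ι F), ← hXa, ← hXb,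
        ← hXc, h0, mulVec_zero]
    have h2 := congrArg (fun x => polar Q x (cv w)) h1
    simp only [polar_add_left, polar_smul_left, polar_zero_left] at h2
    rw [p_zero S (show polar Q₀ a w = 0 by rw [polar_comm, wa]), p_zero S (show polar Q₀ b w = 0 by rw [polar_comm, wb]),
      polar_cv S, cw] at h2
    simp at h2
  refine ⟨polar Q Xc (cv p'), hpc, rt_of_polar S fun w => ?_⟩
  have h1 := minor_image T hr hcard hg qa qc (by rw [polar_comm, ca]) ha0 hca p' w
  rw [← hXa, ← hXc, hpa, zero_mul, sub_zero] at h1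
  rwa [polar_smul_right, smul_eq_mul, polar_comm Q (cv w)]

/-- The scalars of an orthogonal pair multiply into the subfield. -/
theorem kappa_pair {g : GL ι F} (hg : g ∈ H) {a b : ι → F₀} (qa : Q₀ a = 0) (qb : Q₀ b = 0)
    (pab : polar Q₀ a b = 0) (ha0 : a ≠ 0) (hba : b ∉ Submodule.span F₀ {a}) {κ κ' : F}
    (hκ : Rt F₀ (κ • ((g : Matrix ι ι F) *ᵥ cv a))) (hκ' : Rt F₀ (κ' • ((g : Matrix ι ι F) *ᵥ cv b))) :
    κ * κ' ∈ F₀ := by
  have S := T.toSetting
  obtain ⟨p, w, hm⟩ := exists_minor_ne T g ha0 hba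
  have h1 := div_mem (sub_mem (mul_mem (rt_polar S hκ' (rt_cv p)) (rt_polar S hκ (rt_cv w)))
    (mul_mem (rt_polar S hκ (rt_cv p)) (rt_polar S hκ' (rt_cv w)))) (minor_image T hr hcard hg qa qb pab ha0 hba p w)
  simp only [polar_smul_left, smul_eq_mul] at h1
  convert h1 using 1
  rw [eq_div_iff hm]
  ring

/-- `H` lies in the subfield group. -/
theorem mem_sub {g : GL ι F} (hg : g ∈ H) : g ∈ Cfsg.Geo.subfieldSubgroup F₀ (1 : GL ι F) := by
  have S := T.toSetting
  obtain ⟨a, qa, ha0⟩ := exists_singular_ne_zero S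
  obtain ⟨κ, hκ0, hκ⟩ := exists_kappa T hr hcard hg qa ha0
  let Z : Submodule F₀ (ι → F₀) :=
    { carrier := {u | Rt F₀ (κ • ((g : Matrix ι ι F) *ᵥ cv u))}
      add_mem' := fun {u v} hu hv => by
        show Rt F₀ _
        rw [cv_add, mulVec_add, smul_add]; exact rt_add hu hv
      zero_mem' := by
        show Rt F₀ _
        rw [cv_zero, mulVec_zero, smul_zero]; exact fun _ => zero_mem _
      smul_mem' := fun c u hu => by
        show Rt F₀ _
        rw [cv_smul, mulVec_smul, smul_comm]; exact rt_smul (SetLike.coe_mem c) hu }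
  have hsing : ∀ b, Q₀ b = 0 → b ∈ Z := by
    intro b qb
    by_cases hb0 : b = 0
    · rw [hb0]; exact Z.zero_mem
    obtain ⟨c, qc, ca, cb, -, -, cU⟩ := exists_out S a b 0 0
    obtain ⟨ma, mb, -, -⟩ := mem4 (a := a) (b := b) (c := (0 : ι → F₀)) (d := 0)
    have hc0 : c ≠ 0 := fun e => cU (by rw [e]; exact Submodule.zero_mem _)
    obtain ⟨κb, hκb0, hκb⟩ := exists_kappa T hr hcard hg qb hb0
    obtain ⟨κc, hκc0, hκc⟩ := exists_kappa T hr hcard hg qc hc0
    have h1 := kappa_pair T hr hcard hg qa qc (by rw [polar_comm, ca]) ha0 (not_mem_single ma cU) hκ hκc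
    have h2 := kappa_pair T hr hcard hg qb qc (by rw [polar_comm, cb]) hb0 (not_mem_single mb cU) hκb hκc
    show Rt F₀ _
    have h3 := rt_smul (div_mem h1 h2) hκb
    rwa [smul_smul, show κ * κc / (κb * κc) * κb = κ by field_simp] at h3
  refine GeoSubfield.mem_subfield hκ0 fun k j => ?_
  rw [inv_one, Units.val_one, one_mulVec, one_mulVec, ← cv_single (F₀ := F₀)]
  exact span_perp S (x := 0) (z := 0) Z (fun e he _ _ _ => hsing e he) (polar_zero_right _ _)
    (polar_zero_right _ _) (u := Pi.single k 1) j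

omit T hr hcard in
/-- `Ω` is not in the subfield group. -/
theorem not_le_sub (S : Setting Q Q₀ H) {t : F} (ht : t ∉ F₀) :
    ¬ Cfsg.Geo.omegaGL ⇑Q ≤ Cfsg.Geo.subfieldSubgroup F₀ (1 : GL ι F) := by
  intro hle
  obtain ⟨x, qx, hx0⟩ := exists_singular_ne_zero S
  obtain ⟨y, qy, yx, -, -, -, yU⟩ := exists_out S x 0 0 0
  have hyx := not_mem_single (mem4 (a := x) (b := (0 : ι → F₀)) (c := 0) (d := 0)).1 yU
  obtain ⟨w, -, wx, -, yw⟩ := exists_dual S (y := y) (x := x) (z := x) (by rwa [Set.pair_eq_singleton])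
  obtain ⟨g, hg, eg⟩ := exists_isRoot S.nd (five_le S) (q_zero S qx)
    (a := t • cv y) (by rw [QuadraticMap.map_smul, q_zero S qy, smul_zero])
    (by rw [polar_smul_right, p_zero S (by rw [polar_comm, yx] : polar Q₀ x y = 0), smul_zero])
  obtain ⟨c, hc, h⟩ := GeoSubfield.exists_scalar (hle hg)
  have hR : ∀ u : ι → F₀, GeoSubfield.Rat' F₀ (1 : GL ι F) (cv u) := fun u j => by
    rw [inv_one, Units.val_one, one_mulVec]; exact rt_cv u j
  have egx : (g : Matrix ι ι F) *ᵥ cv x = cv x := by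
    rw [eg, polar_smul_left, p_zero S yx, polar_self, q_zero S qx]; simp
  have egw : (g : Matrix ι ι F) *ᵥ cv w = cv w + t • cv x := by
    rw [eg, polar_smul_left, polar_cv S, yw, p_zero S (by rw [polar_comm, wx] : polar Q₀ x w = 0)]; simp
  have hx' : cv x ≠ 0 := fun e => hx0 (cv_injective (by rw [e, cv_zero]))
  have hcF : c ∈ F₀ := GeoSubfield.mem_of_smul (hR x) hx' (by simpa only [egx] using h _ (hR x))
  have h1 := h _ (hR w)
  rw [egw, smul_add, smul_smul] at h1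
  have h2 := GeoSubfield.rat_sub h1 (GeoSubfield.rat_smul hcF (hR w))
  rw [add_sub_cancel_left] at h2
  have h3 := div_mem (GeoSubfield.mem_of_smul (hR x) hx' h2) hcF
  rw [mul_div_cancel_left₀ _ hc] at h3
  exact ht h3

omit T in
/-- The maximality for a rational form. -/
theorem std_maximal (hnd : (polarBilin Q).Nondegenerate) (hnd₀ : (polarBilin Q₀).Nondegenerate)
    (hcast : ∀ u, Q (cv u) = (Q₀ u : F)) (hbig : 13 ≤ Fintype.card ι) :
    Cfsg.Geo.IsMaximalIn (Cfsg.Geo.omegaGL ⇑Q)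
      (Cfsg.Geo.subfieldSubgroup F₀ (1 : GL ι F) ⊓ Cfsg.Geo.omegaGL ⇑Q) := by
  obtain ⟨t, ht⟩ : ∃ a : F, a ∉ F₀ := by
    by_contra hall
    push Not at hall
    have h1 : Nat.card F₀ = Fintype.card F := by
      rw [← Nat.card_eq_fintype_card]
      exact Nat.card_congr (Equiv.subtypeUnivEquiv hall)
    rw [hcard] at h1
    exact hr.ne_one (Nat.pow_right_injective (Finite.one_lt_card (α := F₀))
      (show Nat.card F₀ ^ 1 = Nat.card F₀ ^ r by rw [pow_one]; exact h1)).symm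
  have S₁ : Setting Q Q₀ (Cfsg.Geo.omegaGL ⇑Q) := ⟨hnd, hnd₀, hcast, hbig, fun g hg _ => hg, le_rfl⟩
  refine ⟨lt_of_le_not_ge inf_le_right fun hle => not_le_sub S₁ ht (fun g hg => (hle hg).1),
    fun M hGM hMS => ?_⟩
  have S : Setting Q Q₀ M := ⟨hnd, hnd₀, hcast, hbig, fun g hg hR => hGM ⟨isR_mem_subfield hR, hg⟩, hMS⟩
  obtain ⟨A, hA, hA0⟩ := exists_ring S
  rcases SubMaxSp.ring_dichotomy hr hcard A hA0 with hA' | hA'
  · exact Or.inr (eq_top_case S fun a => (hA a).1 (hA' ▸ Subring.mem_top a))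
  · have T : Tight Q Q₀ M := { toSetting := S, small := fun a ha => hA' a ((hA a).2 ha) }
    exact Or.inl (le_antisymm (le_inf (fun g hg => mem_sub T hr hcard hg) hMS) hGM)

omit T in
/-- Subfield subgroups of `Ω` are maximal. -/
theorem subfield_maximal_omega (hnd : (polarBilin Q).Nondegenerate) (hbig : 13 ≤ Fintype.card ι) {P : GL ι F} {ζ : F} (hζ : ζ ≠ 0)
    (hP : Cfsg.Geo.IsQuadFormRationalStructure (fun v : ι → F => ζ * Q v) F₀ P) :
    Cfsg.Geo.IsMaximalIn (Cfsg.Geo.omegaGL ⇑Q) (Cfsg.Geo.subfieldSubgroup F₀ P ⊓ Cfsg.Geo.omegaGL ⇑Q) := by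
  classical
  set Q' : QuadraticForm F (ι → F) := ζ • Q.comp (Matrix.toLin' (P : Matrix ι ι F)) with hQ'
  have hQ'a : ∀ v, Q' v = ζ * Q ((P : Matrix ι ι F) *ᵥ v) := fun v => by
    simp [hQ', Matrix.toLin'_apply]
  have hB : ∀ x y, polar Q' x y = ζ * polar Q ((P : Matrix ι ι F) *ᵥ x) ((P : Matrix ι ι F) *ᵥ y) := fun x y => by
    simp only [polar, hQ'a, mulVec_add]; ring
  have hnd' : (polarBilin Q').Nondegenerate := nondegenerate_iff.2 fun x hx => by
    have h0 : (P : Matrix ι ι F) *ᵥ x = 0 := hnd.1 _ fun y => by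
      have h1 := hx (((P⁻¹ : GL ι F) : Matrix ι ι F) *ᵥ y)
      rw [hB, mulVec_inv_cancel] at h1
      exact (mul_eq_zero.1 h1).resolve_left hζ
    rw [← inv_mulVec_cancel P x, h0, mulVec_zero]
  let f₀ : (ι → F₀) → F₀ := fun u => ⟨Q' (cv u), by rw [hQ'a]; exact hP _ (rt_cv u)⟩
  have hf₀ : ∀ u v, ((polar f₀ u v : F₀) : F) = polar Q' (cv u) (cv v) := fun u v => by
    simp [f₀, polar, cv_add]
  let Q₀' : QuadraticForm F₀ (ι → F₀) := QuadraticMap.ofPolar f₀
    (fun c u => Subtype.ext (by simp [f₀, cv_smul, QuadraticMap.map_smul]))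
    (fun u u' v => Subtype.ext (by simp only [AddMemClass.coe_add, hf₀, cv_add, polar_add_left]))
    (fun c u v => Subtype.ext (by
      simp only [smul_eq_mul, MulMemClass.coe_mul, hf₀, cv_smul, polar_smul_left]))
  have hcast : ∀ u, Q' (cv u) = ((Q₀' u : F₀) : F) := fun u => rfl
  have hnd₀ : (polarBilin Q₀').Nondegenerate := nondegenerate_iff.2 fun x hx => by
    refine cv_injective (F₀ := F₀) (hnd'.1 _ fun y => ?_)
    rw [show y = ∑ k, y k • cv (Pi.single k (1 : F₀)) from funext fun o => by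
      simp [cv_single, Finset.sum_apply, Pi.single_apply], map_sum]
    refine Finset.sum_eq_zero fun k _ => ?_
    rw [LinearMap.map_smul, polarBilin_apply_apply, ← hf₀, show polar f₀ x (Pi.single k 1) = 0 from hx _]
    simp
  set φ : GL ι F →* GL ι F := (MulAut.conj P).toMonoidHom with hφ
  have hφi : Function.Injective φ := (MulAut.conj P).injective
  have hφsur : Function.Surjective φ := (MulAut.conj P).surjective
  have hn : 5 ≤ Fintype.card ι := by omega
  -- root elements correspond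
  have hroot : ∀ {d a : ι → F} {g : GL ι F}, IsRoot Q' d a g →
      IsRoot Q (ζ • ((P : Matrix ι ι F) *ᵥ d)) ((P : Matrix ι ι F) *ᵥ a) (φ g) := by
    intro d a g hg x
    simp only [hφ, MulEquiv.coe_toMonoidHom, MulAut.conj_apply, Units.val_mul, ← mulVec_mulVec]
    rw [hg, hB, hB, mulVec_inv_cancel, mulVec_sub, mulVec_add, mulVec_smul, mulVec_smul, mulVec_inv_cancel,
      polar_smul_left, smul_eq_mul]
    module
  have hΩ : (Cfsg.Geo.omegaGL ⇑Q').map φ = Cfsg.Geo.omegaGL ⇑Q := by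
    refine le_antisymm (Subgroup.map_le_iff_le_comap.2 ?_) ?_
    · refine omegaGL_le_of_roots hnd' hn fun d a hd ha hda g hg => ?_
      have hQd : ∀ x, Q' x = 0 → Q ((P : Matrix ι ι F) *ᵥ x) = 0 := fun x hx => by
        rw [hQ'a] at hx; exact (mul_eq_zero.1 hx).resolve_left hζ
      obtain ⟨s, hs, es⟩ := exists_isRoot hnd hn (d := ζ • ((P : Matrix ι ι F) *ᵥ d))
        (a := (P : Matrix ι ι F) *ᵥ a) (by rw [QuadraticMap.map_smul, hQd d hd, smul_zero]) (hQd a ha)
        (by rw [polar_smul_left, smul_eq_mul, ← hB, hda])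
      rw [Subgroup.mem_comap, show φ g = s from GeoFull.gl_ext fun x => by rw [hroot hg x, es]]
      exact hs
    · refine omegaGL_le_of_roots hnd hn fun d a hd ha hda g hg => ?_
      obtain ⟨s, hs, es⟩ := exists_isRoot hnd' hn (d := ζ⁻¹ • (((P⁻¹ : GL ι F) : Matrix ι ι F) *ᵥ d))
        (a := ((P⁻¹ : GL ι F) : Matrix ι ι F) *ᵥ a)
        (by rw [QuadraticMap.map_smul, hQ'a, mulVec_inv_cancel, hd]; simp)
        (by rw [hQ'a, mulVec_inv_cancel, ha, mul_zero])
        (by rw [hB, mulVec_smul, mulVec_inv_cancel, mulVec_inv_cancel, polar_smul_left, hda]; simp)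
      refine ⟨s, hs, GeoFull.gl_ext fun x => ?_⟩
      rw [hroot es x, hg, mulVec_smul, mulVec_inv_cancel, mulVec_inv_cancel, smul_inv_smul₀ hζ]
  have h1 : Cfsg.Geo.subfieldSubgroup F₀ (1 : GL ι F) =
      (Matrix.GeneralLinearGroup.map (F₀.subtype : F₀ →+* F) : GL ι F₀ →* GL ι F).range ⊔
        Cfsg.Geo.scalars ι F := by
    rw [Cfsg.Geo.subfieldSubgroup, map_one]
    exact Subgroup.map_id _
  have hmap : (Cfsg.Geo.subfieldSubgroup F₀ (1 : GL ι F)).map φ = Cfsg.Geo.subfieldSubgroup F₀ P := by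
    rw [h1]; rfl
  have hG : Cfsg.Geo.subfieldSubgroup F₀ P ⊓ Cfsg.Geo.omegaGL ⇑Q =
      (Cfsg.Geo.subfieldSubgroup F₀ (1 : GL ι F) ⊓ Cfsg.Geo.omegaGL ⇑Q').map φ := by
    rw [Subgroup.map_inf _ _ _ hφi, hmap, hΩ]
  obtain ⟨hlt, hmax⟩ := std_maximal (F₀ := F₀) hr hcard hnd' hnd₀ hcast hbig
  rw [hG]
  refine ⟨?_, fun M hGM hMS => ?_⟩
  · conv_rhs => rw [← hΩ]
    exact (Subgroup.map_lt_map_iff_of_injective hφi).2 hlt
  · rcases hmax (M.comap φ) (Subgroup.map_le_iff_le_comap.1 hGM) (fun g hg => by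
      have h := hMS hg
      rw [← hΩ] at h
      obtain ⟨g', hg', e⟩ := h
      exact hφi e ▸ hg') with h | h
    · left
      rw [← h, Subgroup.map_comap_eq_self_of_surjective hφsur]
    · right
      rw [← hΩ, ← h, Subgroup.map_comap_eq_self_of_surjective hφsur]

end CfsgLib.SubMaxO
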